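import Mathlib
import Cfsg.Agent.Lib.Helper12.KleinConj
import Cfsg.Agent.Lib.Helper12.SL2Tori
import Cfsg.Agent.S0228

set_option autoImplicit false

namespace Cfsg.Agent.Lib.Helper12

section a4
variable {G : Type*} [Group G]

theorem exists_card_mul [Finite G] (V : Subgroup G) (s : G) (r : ℕ) [Fact r.Prime]
    (hs : s ∈ Subgroup.normalizer (V : Set G)) (hsV : s ∉ V) (hsr : s ^ r ∈ V) :
    ∃ H : Subgroup G, V ≤ H ∧ s ∈ H ∧ H ≤ Subgroup.normalizer (V : Set G) ∧
      Nat.card H = r * Nat.card V := by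
  set N := Subgroup.normalizer (V : Set G) with hN
  have hVN : V ≤ N := Subgroup.le_normalizer
  haveI : (V.subgroupOf N).Normal := Subgroup.normal_in_normalizer
  have h2 : orderOf (QuotientGroup.mk' (V.subgroupOf N) ⟨s, hs⟩) = r := by
    apply orderOf_eq_prime
    · rw [← map_pow, QuotientGroup.mk'_apply, QuotientGroup.eq_one_iff, Subgroup.mem_subgroupOf]
      exact hsr
    · rw [QuotientGroup.mk'_apply, ne_eq, QuotientGroup.eq_one_iff, Subgroup.mem_subgroupOf]
      exact hsV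
  set C := Subgroup.zpowers (QuotientGroup.mk' (V.subgroupOf N) ⟨s, hs⟩) with hC
  set H' := C.comap (QuotientGroup.mk' (V.subgroupOf N)) with hH'
  have hVH' : V.subgroupOf N ≤ H' := by
    intro x hx
    rw [hH', Subgroup.mem_comap]
    have : QuotientGroup.mk' (V.subgroupOf N) x = 1 := by
      rw [QuotientGroup.mk'_apply, QuotientGroup.eq_one_iff]; exact hx
    rw [this]; exact C.one_mem
  refine ⟨H'.map N.subtype, ?_, ?_, ?_, ?_⟩
  · intro x hx
    exact ⟨⟨x, hVN hx⟩, hVH' (Subgroup.mem_subgroupOf.mpr hx), rfl⟩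
  · exact ⟨⟨s, hs⟩, Subgroup.mem_comap.mpr (Subgroup.mem_zpowers _), rfl⟩
  · exact Subgroup.map_subtype_le H'
  · rw [Subgroup.card_map_of_injective N.subtype_injective]
    have h3 := card_map_mk_mul (V.subgroupOf N) H' hVH'
    rw [hH', Subgroup.map_comap_eq_self_of_surjective (QuotientGroup.mk'_surjective _), hC,
      Nat.card_zpowers, h2, Nat.card_congr (Subgroup.subgroupOfEquivOfLe hVN).toEquiv] at h3
    exact h3.symm

theorem exists_A4 [Finite G] (V : Subgroup G) (hV : IsKleinFour V) (s : G)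
    (hs : s ∈ Subgroup.normalizer (V : Set G)) (hs3 : s ^ 3 ∈ V)
    (hnc : ∀ z ∈ V, z ≠ 1 → s * z ≠ z * s) :
    ∃ H : Subgroup G, Nonempty (H ≃* alternatingGroup (Fin 4)) := by
  haveI : Fact (Nat.Prime 3) := ⟨by norm_num⟩
  have hsV : s ∉ V := by
    intro h
    obtain ⟨z, -, hz, -, hz1, -, -⟩ := klein_exists V hV
    exact hnc z hz hz1 (comm_of_sq s z (klein_sq V hV s h) (klein_sq V hV z hz)
      (klein_sq V hV _ (V.mul_mem h hz)))
  obtain ⟨H, hVH, hsH, hHN, hcard⟩ := exists_card_mul V s 3 hs hsV hs3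
  rw [hV.card_four] at hcard
  refine ⟨H, Cfsg.Agent.S0228.result (G := H) hcard ?_⟩
  intro z hz hzc
  haveI : (V.subgroupOf H).Normal := (Subgroup.normal_subgroupOf_iff_le_normalizer hVH).mpr hHN
  have hidx : (V.subgroupOf H).index = 3 := by
    have h3 := Subgroup.card_mul_index (V.subgroupOf H)
    rw [Nat.card_congr (Subgroup.subgroupOfEquivOfLe hVH).toEquiv, hV.card_four, hcard] at h3
    omega
  have h4 := Subgroup.pow_index_mem (V.subgroupOf H) z
  rw [hidx] at h4
  have hz2 : z ^ 2 = 1 := by rw [← hz]; exact pow_orderOf_eq_one z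
  have hz3 : z ^ 3 = z := by rw [pow_succ, hz2, one_mul]
  rw [hz3, Subgroup.mem_subgroupOf] at h4
  have hz1 : (z : G) ≠ 1 := by
    intro h
    have : z = 1 := Subtype.ext h
    rw [this, orderOf_one] at hz
    omega
  apply hnc z.1 h4 hz1
  exact congrArg Subtype.val (Subgroup.mem_center_iff.mp hzc ⟨s, hsH⟩)

end a4

end Cfsg.Agent.Lib.Helper12
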