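import Mathlib
import Cfsg.Prelude.Def_ClassicalGeometry

set_option autoImplicit false

namespace Cfsg.Agent.Lib.Helper12

open Matrix

/-- Generic: in the isometry group of `f = f₁ ⊥ f₂` the stabiliser of the first summand is the
product of the two isometry groups. -/
theorem stab_equiv_prod {F : Type*} [Field F] {ι κ₁ κ₂ : Type} [Fintype ι] [DecidableEq ι]
    [Fintype κ₁] [DecidableEq κ₁] [Fintype κ₂] [DecidableEq κ₂]
    {H H₁ H₂ : Type*} [Group H] [Group H₁] [Group H₂]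
    (t : H →* Matrix ι ι F) (t₁ : H₁ →* Matrix κ₁ κ₁ F) (t₂ : H₂ →* Matrix κ₂ κ₂ F)
    (ht : Function.Injective t) (ht₁ : Function.Injective t₁) (ht₂ : Function.Injective t₂)
    (f : (ι → F) → (ι → F) → F) (f₁ : (κ₁ → F) → (κ₁ → F) → F) (f₂ : (κ₂ → F) → (κ₂ → F) → F)
    (hr : ∀ M, (∃ h, t h = M) ↔ ∀ u v, f (M *ᵥ u) (M *ᵥ v) = f u v)
    (hr₁ : ∀ M, (∃ h, t₁ h = M) ↔ ∀ u v, f₁ (M *ᵥ u) (M *ᵥ v) = f₁ u v)
    (hr₂ : ∀ M, (∃ h, t₂ h = M) ↔ ∀ u v, f₂ (M *ᵥ u) (M *ᵥ v) = f₂ u v)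
    (φ : (κ₁ ⊕ κ₂ → F) ≃ₗ[F] (ι → F))
    (hφ : ∀ x y, f (φ x) (φ y) = f₁ (x ∘ Sum.inl) (y ∘ Sum.inl) + f₂ (x ∘ Sum.inr) (y ∘ Sum.inr))
    (hnd : ∀ x, (∀ a, f₁ a x = 0) → x = 0)
    (h0₁ : ∀ x, f₁ x 0 = 0) (h0₂ : ∀ x, f₂ 0 x = 0)
    (W : Set (ι → F)) (hW : ∀ x, φ x ∈ W ↔ x ∘ Sum.inr = 0) :
    Nonempty (Cfsg.stabilizing t W ≃* H₁ × H₂) := by
  classical
  set P : Matrix ι (κ₁ ⊕ κ₂) F := LinearMap.toMatrix' (φ : (κ₁ ⊕ κ₂ → F) →ₗ[F] (ι → F)) with hPdef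
  set Q : Matrix (κ₁ ⊕ κ₂) ι F := LinearMap.toMatrix' (φ.symm : (ι → F) →ₗ[F] (κ₁ ⊕ κ₂ → F))
    with hQdef
  have hP : ∀ x, P *ᵥ x = φ x := fun x => LinearMap.toMatrix'_mulVec _ x
  have hQ : ∀ v, Q *ᵥ v = φ.symm v := fun x => LinearMap.toMatrix'_mulVec _ x
  have hPQ : P * Q = 1 := by
    rw [hPdef, hQdef, ← LinearMap.toMatrix'_comp]; simp
  have hQP : Q * P = 1 := by
    rw [hPdef, hQdef, ← LinearMap.toMatrix'_comp]; simp
  let Mat : Matrix κ₁ κ₁ F → Matrix κ₂ κ₂ F → Matrix ι ι F := fun A B =>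
    P * fromBlocks A 0 0 B * Q
  have hMat : ∀ A B x, Mat A B *ᵥ φ x
      = φ (Sum.elim (A *ᵥ (x ∘ Sum.inl)) (B *ᵥ (x ∘ Sum.inr))) := by
    intro A B x
    show (P * fromBlocks A 0 0 B * Q) *ᵥ φ x = _
    rw [← mulVec_mulVec, ← mulVec_mulVec, hQ, hP, LinearEquiv.symm_apply_apply,
      fromBlocks_mulVec]
    simp
  have hMat_mul : ∀ A B A' B', Mat A B * Mat A' B' = Mat (A * A') (B * B') := by
    intro A B A' B'
    show (P * fromBlocks A 0 0 B * Q) * (P * fromBlocks A' 0 0 B' * Q) = P * _ * Q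
    have : (P * fromBlocks A 0 0 B * Q) * (P * fromBlocks A' 0 0 B' * Q)
        = P * (fromBlocks A 0 0 B * (Q * P) * fromBlocks A' 0 0 B') * Q := by
      simp only [Matrix.mul_assoc]
    rw [this, hQP, Matrix.mul_one, fromBlocks_multiply]
    simp
  have hMat_one : Mat 1 1 = 1 := by
    show P * fromBlocks 1 0 0 1 * Q = 1
    rw [fromBlocks_one, Matrix.mul_one, hPQ]
  have hMat_inj : ∀ A B A' B', Mat A B = Mat A' B' → A = A' ∧ B = B' := by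
    intro A B A' B' h
    have h1 : Q * Mat A B * P = Q * Mat A' B' * P := by rw [h]
    have h2 : ∀ A B, Q * Mat A B * P = fromBlocks A 0 0 B := by
      intro A B
      show Q * (P * fromBlocks A 0 0 B * Q) * P = _
      have : Q * (P * fromBlocks A 0 0 B * Q) * P = (Q * P) * fromBlocks A 0 0 B * (Q * P) := by
        simp only [Matrix.mul_assoc]
      rw [this, hQP, Matrix.one_mul, Matrix.mul_one]
    rw [h2, h2, fromBlocks_inj] at h1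
    exact ⟨h1.1, h1.2.2.2⟩
  have hsurjφ : ∀ v, ∃ x, φ x = v := fun v => ⟨φ.symm v, φ.apply_symm_apply v⟩
  have hpres : ∀ A B, (∀ u v, f₁ (A *ᵥ u) (A *ᵥ v) = f₁ u v) →
      (∀ u v, f₂ (B *ᵥ u) (B *ᵥ v) = f₂ u v) →
      ∀ u v, f (Mat A B *ᵥ u) (Mat A B *ᵥ v) = f u v := by
    intro A B hA hB u v
    obtain ⟨x, rfl⟩ := hsurjφ u
    obtain ⟨y, rfl⟩ := hsurjφ v
    rw [hMat, hMat, hφ, hφ]
    simp only [Sum.elim_comp_inl, Sum.elim_comp_inr, hA, hB]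
  have hex : ∀ ab : H₁ × H₂, ∃ h, t h = Mat (t₁ ab.1) (t₂ ab.2) := fun ab =>
    (hr _).2 (hpres _ _ ((hr₁ _).1 ⟨_, rfl⟩) ((hr₂ _).1 ⟨_, rfl⟩))
  choose g hg using hex
  have hstab : ∀ ab, g ab ∈ Cfsg.stabilizing t W := by
    intro ab v
    obtain ⟨x, rfl⟩ := hsurjφ v
    rw [hg, hMat, hW, hW, Sum.elim_comp_inr]
    constructor
    · intro h; rw [h, mulVec_zero]
    · intro h
      have h1 : t₂ ab.2⁻¹ *ᵥ (t₂ ab.2 *ᵥ (x ∘ Sum.inr)) = x ∘ Sum.inr := by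
        rw [mulVec_mulVec, ← map_mul, inv_mul_cancel, map_one, one_mulVec]
      rw [← h1, h, mulVec_zero]
  let Ψ : H₁ × H₂ →* Cfsg.stabilizing t W :=
    { toFun := fun ab => ⟨g ab, hstab ab⟩
      map_one' := by
        apply Subtype.ext
        apply ht
        show t (g 1) = t 1
        rw [hg, map_one]
        simp [hMat_one]
      map_mul' := by
        intro a b
        apply Subtype.ext
        apply ht
        show t (g (a * b)) = t (g a * g b)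
        rw [map_mul, hg, hg, hg, hMat_mul]
        simp }
  have hinj : Function.Injective Ψ := by
    intro a b hab
    have h1 : g a = g b := congrArg Subtype.val hab
    have h2 : Mat (t₁ a.1) (t₂ a.2) = Mat (t₁ b.1) (t₂ b.2) := by rw [← hg, ← hg, h1]
    obtain ⟨h3, h4⟩ := hMat_inj _ _ _ _ h2
    exact Prod.ext (ht₁ h3) (ht₂ h4)
  have hsurj : Function.Surjective Ψ := by
    rintro ⟨h, hh⟩
    set M := t h with hM
    have hMp : ∀ u v, f (M *ᵥ u) (M *ᵥ v) = f u v := (hr M).1 ⟨h, rfl⟩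
    set D : Matrix (κ₁ ⊕ κ₂) (κ₁ ⊕ κ₂) F := Q * M * P with hD
    have hDv : ∀ x, φ (D *ᵥ x) = M *ᵥ φ x := by
      intro x
      rw [hD, ← mulVec_mulVec, ← mulVec_mulVec, hQ, hP, LinearEquiv.apply_symm_apply]
    have h21 : D.toBlocks₂₁ = 0 := by
      ext i j
      have h1 : φ (Pi.single (Sum.inl j) 1) ∈ W := by
        rw [hW]; ext i'; simp
      have h2 := (hh _).1 h1
      rw [← hM, ← hDv, hW] at h2
      have h3 := congrFun h2 i
      simpa [toBlocks₂₁] using h3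
    have h12 : D.toBlocks₁₂ = 0 := by
      have key : ∀ j, (D *ᵥ Pi.single (Sum.inr j) 1) ∘ Sum.inl = 0 := by
        intro j
        apply hnd
        intro a
        have ha : φ (Sum.elim a 0) ∈ W := by rw [hW]; simp
        have h1 : M *ᵥ (t h⁻¹ *ᵥ φ (Sum.elim a 0)) = φ (Sum.elim a 0) := by
          rw [hM, mulVec_mulVec, ← map_mul, mul_inv_cancel, map_one, one_mulVec]
        have h2 : t h⁻¹ *ᵥ φ (Sum.elim a 0) ∈ W := by
          rw [hh, ← hM, h1]; exact ha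
        obtain ⟨z, hz⟩ := hsurjφ (t h⁻¹ *ᵥ φ (Sum.elim a 0))
        rw [← hz, hW] at h2
        have h3 : f (φ (Sum.elim a 0)) (φ (D *ᵥ Pi.single (Sum.inr j) 1))
            = f (φ z) (φ (Pi.single (Sum.inr j) 1)) := by
          rw [hDv, ← h1, ← hz, hMp]
        rw [hφ, hφ, h2, Sum.elim_comp_inl, Sum.elim_comp_inr, h0₂, h0₂] at h3
        have h4 : (Pi.single (Sum.inr j) (1 : F) : κ₁ ⊕ κ₂ → F) ∘ Sum.inl = 0 := by
          ext i'; simp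
        rw [h4, h0₁] at h3
        simpa using h3
      ext i j
      have h3 := congrFun (key j) i
      simpa [toBlocks₁₂] using h3
    have hDb : D = fromBlocks D.toBlocks₁₁ 0 0 D.toBlocks₂₂ := by
      conv_lhs => rw [← fromBlocks_toBlocks D, h12, h21]
    have hMD : M = Mat D.toBlocks₁₁ D.toBlocks₂₂ := by
      show M = P * fromBlocks _ 0 0 _ * Q
      rw [← hDb, hD]
      have : P * (Q * M * P) * Q = (P * Q) * M * (P * Q) := by simp only [Matrix.mul_assoc]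
      rw [this, hPQ, Matrix.one_mul, Matrix.mul_one]
    have hA : ∀ u v, f₁ (D.toBlocks₁₁ *ᵥ u) (D.toBlocks₁₁ *ᵥ v) = f₁ u v := by
      intro u v
      have h1 := hMp (φ (Sum.elim u 0)) (φ (Sum.elim v 0))
      rw [hMD, hMat, hMat, hφ, hφ] at h1
      simpa [h0₂] using h1
    have hB : ∀ u v, f₂ (D.toBlocks₂₂ *ᵥ u) (D.toBlocks₂₂ *ᵥ v) = f₂ u v := by
      intro u v
      have h1 := hMp (φ (Sum.elim 0 u)) (φ (Sum.elim 0 v))
      rw [hMD, hMat, hMat, hφ, hφ] at h1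
      simpa [h0₁] using h1
    obtain ⟨a, ha⟩ := (hr₁ _).2 hA
    obtain ⟨b, hb⟩ := (hr₂ _).2 hB
    refine ⟨(a, b), ?_⟩
    apply Subtype.ext
    apply ht
    show t (g (a, b)) = t h
    rw [hg, ha, hb, ← hMD]
  exact ⟨(MulEquiv.ofBijective Ψ ⟨hinj, hsurj⟩).symm⟩

/-- gluing coordinates on two complementary subspaces. -/
theorem exists_glue {F : Type*} [Field F] {ι κ₁ κ₂ : Type}
    (W W' : Submodule F (ι → F)) (hc : IsCompl W W')
    (ψ₁ : (κ₁ → F) ≃ₗ[F] W) (ψ₂ : (κ₂ → F) ≃ₗ[F] W') :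
    ∃ φ : (κ₁ ⊕ κ₂ → F) ≃ₗ[F] (ι → F),
      (∀ x, φ x = (ψ₁ (x ∘ Sum.inl) : ι → F) + (ψ₂ (x ∘ Sum.inr) : ι → F)) ∧
      ∀ x, φ x ∈ W ↔ x ∘ Sum.inr = 0 := by
  let φ : (κ₁ ⊕ κ₂ → F) ≃ₗ[F] (ι → F) :=
    (LinearEquiv.sumArrowLequivProdArrow κ₁ κ₂ F F) ≪≫ₗ (ψ₁.prodCongr ψ₂) ≪≫ₗ
      (Submodule.prodEquivOfIsCompl W W' hc)
  have h1 : ∀ x, φ x = (ψ₁ (x ∘ Sum.inl) : ι → F) + (ψ₂ (x ∘ Sum.inr) : ι → F) := by
    intro x
    rfl
  refine ⟨φ, h1, fun x => ?_⟩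
  rw [h1, W.add_mem_iff_right (ψ₁ _).2]
  constructor
  · intro h
    have h2 : (ψ₂ (x ∘ Sum.inr) : ι → F) ∈ W ⊓ W' := ⟨h, (ψ₂ _).2⟩
    rw [hc.inf_eq_bot, Submodule.mem_bot] at h2
    have h3 : ψ₂ (x ∘ Sum.inr) = 0 := Subtype.ext h2
    simpa using h3
  · intro h
    rw [h, map_zero]
    exact W.zero_mem

end Cfsg.Agent.Lib.Helper12
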