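import Mathlib

set_option autoImplicit false

namespace Cfsg.Agent.Lib.Helper12

open Module

variable {K V : Type*} [Field K] [Fintype K] [AddCommGroup V] [Module K V] [Finite V]

theorem finite_submodule' : Finite (Submodule K V) :=
  Finite.of_injective (fun W : Submodule K V => (W : Set V)) SetLike.coe_injective

/-- counting subspaces of dimension `k` through their ordered bases. -/
theorem card_frames (k : ℕ) (P : Submodule K V → Prop) :
    Nat.card {s : Fin k → V // LinearIndependent K s ∧ P (Submodule.span K (Set.range s))}
      = Nat.card {W : Submodule K V // finrank K W = k ∧ P W}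
        * ∏ i : Fin k, (Fintype.card K ^ k - Fintype.card K ^ (i : ℕ)) := by
  classical
  have := finite_submodule' (K := K) (V := V)
  have : Fintype {W : Submodule K V // finrank K W = k ∧ P W} := Fintype.ofFinite _
  let π : {s : Fin k → V // LinearIndependent K s ∧ P (Submodule.span K (Set.range s))} →
      {W : Submodule K V // finrank K W = k ∧ P W} :=
    fun s => ⟨Submodule.span K (Set.range s.1), by
      rw [finrank_span_eq_card s.2.1, Fintype.card_fin], s.2.2⟩
  have hfib : ∀ W : {W : Submodule K V // finrank K W = k ∧ P W},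
      Nat.card {a // π a = W} = ∏ i : Fin k, (Fintype.card K ^ k - Fintype.card K ^ (i : ℕ)) := by
    intro W
    have h1 := card_linearIndependent (K := K) (V := W.1) (k := k) (le_of_eq W.2.1.symm)
    rw [W.2.1] at h1
    rw [← h1]
    refine Nat.card_congr ⟨fun a => ⟨fun i => ⟨a.1.1 i, ?_⟩, ?_⟩, fun t => ⟨⟨fun i => (t.1 i : V), ?_, ?_⟩, ?_⟩,
      ?_, ?_⟩
    · have : Submodule.span K (Set.range a.1.1) = W.1 := congrArg Subtype.val a.2
      rw [← this]
      exact Submodule.subset_span ⟨i, rfl⟩
    · apply LinearIndependent.of_comp W.1.subtype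
      exact a.1.2.1
    · exact t.2.map' W.1.subtype (Submodule.ker_subtype _)
    · have h2 : Submodule.span K (Set.range fun i => (t.1 i : V)) = W.1 := by
        have h3 := t.2.span_eq_top_of_card_eq_finrank' (by rw [Fintype.card_fin, W.2.1])
        have h4 : (Set.range fun i => (t.1 i : V)) = W.1.subtype '' (Set.range t.1) := by
          rw [← Set.range_comp]; rfl
        rw [h4, ← Submodule.map_span, h3, Submodule.map_subtype_top]
      rw [h2]; exact W.2.2
    · apply Subtype.ext
      change Submodule.span K (Set.range fun i => (t.1 i : V)) = W.1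
      have h3 := t.2.span_eq_top_of_card_eq_finrank' (by rw [Fintype.card_fin, W.2.1])
      have h4 : (Set.range fun i => (t.1 i : V)) = W.1.subtype '' (Set.range t.1) := by
        rw [← Set.range_comp]; rfl
      rw [h4, ← Submodule.map_span, h3, Submodule.map_subtype_top]
    · intro a; rfl
    · intro t; rfl
  rw [Nat.card_congr (Equiv.sigmaFiberEquiv π).symm, Nat.card_sigma,
    Finset.sum_congr rfl fun W _ => hfib W, Finset.sum_const, smul_eq_mul, Finset.card_univ,
    Nat.card_eq_fintype_card]

/-- the case `k = 2`, with pairs. -/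
theorem card_frames_two (P : Submodule K V → Prop) :
    Nat.card {p : V × V // LinearIndependent K ![p.1, p.2] ∧ P (Submodule.span K {p.1, p.2})}
      = Nat.card {W : Submodule K V // finrank K W = 2 ∧ P W}
        * ((Fintype.card K ^ 2 - 1) * (Fintype.card K ^ 2 - Fintype.card K)) := by
  have h := card_frames (K := K) (V := V) 2 P
  rw [Fin.prod_univ_two] at h
  simp only [Fin.val_zero, pow_zero, Fin.val_one, pow_one] at h
  rw [← h]
  refine Nat.card_congr ⟨fun p => ⟨![p.1.1, p.1.2], p.2.1, ?_⟩, fun s => ⟨(s.1 0, s.1 1), ?_, ?_⟩,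
    ?_, ?_⟩
  · have : Set.range ![p.1.1, p.1.2] = {p.1.1, p.1.2} := by
      simp [Matrix.range_cons, Set.pair_comm]
    rw [this]; exact p.2.2
  · have : ![s.1 0, s.1 1] = s.1 := by
      ext i; fin_cases i <;> rfl
    simp only [this]; exact s.2.1
  · have : ({s.1 0, s.1 1} : Set V) = Set.range s.1 := by
      ext x
      simp only [Set.mem_insert_iff, Set.mem_singleton_iff, Set.mem_range, Fin.exists_fin_two]
      constructor
      · rintro (h | h) <;> simp [h]
      · rintro (h | h) <;> simp [h]
    simp only [this]; exact s.2.2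
  · intro p; rfl
  · intro s
    apply Subtype.ext
    ext i; fin_cases i <;> rfl

end Cfsg.Agent.Lib.Helper12
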