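import Mathlib
import Cfsg.Prelude.Def_LieClassical
import Cfsg.Agent.Lib.Helper6.Herm
import Cfsg.Agent.Lib.Helper12.UnitaryCount
import Cfsg.Agent.Lib.Helper12.Frames

set_option autoImplicit false

namespace Cfsg.Agent.Lib.Helper12

open Matrix Cfsg Cfsg.Agent.Lib.Helper6

theorem card_eq_sum_fiber {α β : Type*} [Finite α] [Fintype β] (P : α → Prop) (φ : α → β) :
    Nat.card {v // P v} = ∑ c, Nat.card {v // P v ∧ φ v = c} := by
  classical
  rw [Nat.card_congr (Equiv.sigmaFiberEquiv (fun x : {v // P v} => φ x.1)).symm, Nat.card_sigma]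
  refine Finset.sum_congr rfl fun c _ => ?_
  exact Nat.card_congr (Equiv.subtypeSubtypeEquivSubtypeInter P (fun v => φ v = c))

theorem card_and_not {α : Type*} [Finite α] (D E : α → Prop) (h : ∀ v, E v → D v) :
    Nat.card {v // D v ∧ ¬ E v} = Nat.card {v // D v} - Nat.card {v // E v} := by
  classical
  have : Fintype α := Fintype.ofFinite α
  simp only [Nat.card_eq_fintype_card, Fintype.card_subtype]
  rw [← Finset.card_sdiff_of_subset]
  · congr 1
    ext v
    simp
  · intro v
    simp only [Finset.mem_filter, Finset.mem_univ, true_and]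
    exact h v

theorem card_prod_subtype {α β : Type*} [Fintype α] [Finite β] (C : α → β → Prop) :
    Nat.card {p : α × β // C p.1 p.2} = ∑ u, Nat.card {v // C u v} := by
  classical
  have : Fintype β := Fintype.ofFinite β
  simp only [Nat.card_eq_fintype_card, Fintype.card_subtype, Finset.card_filter]
  rw [Fintype.sum_prod_type]

variable {F : Type*} [Field F] [Fintype F] {q : ℕ}

theorem card_fixed (hF : Fintype.card F = q ^ 2) : Nat.card {c : F // c ^ q = c} = q := by
  classical
  have hq := herm_q_pos hF
  have h1 : (Finset.univ.filter fun c : F => c ^ q = c)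
      = insert 0 (Finset.univ.filter fun c : F => c ^ (q - 1) = 1) := by
    ext c
    simp only [Finset.mem_filter, Finset.mem_univ, true_and, Finset.mem_insert]
    constructor
    · intro h
      by_cases h0 : c = 0
      · exact Or.inl h0
      · right
        have : c ^ (q - 1) * c = 1 * c := by
          rw [← pow_succ, one_mul, Nat.sub_add_cancel (by omega), h]
        exact mul_right_cancel₀ h0 this
    · rintro (rfl | h)
      · exact zero_pow (by omega)
      · have : c ^ q = c ^ (q - 1) * c := by rw [← pow_succ, Nat.sub_add_cancel (by omega)]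
        rw [this, h, one_mul]
  have h2 := card_pow_eq_one' (F := F) (q - 1) (by omega)
  rw [Nat.card_eq_fintype_card, Fintype.card_subtype] at h2
  rw [Nat.card_eq_fintype_card, Fintype.card_subtype, h1, Finset.card_insert_of_notMem, h2, hF]
  · have : q ^ 2 - 1 = (q + 1) * (q - 1) := by
      obtain ⟨k, rfl⟩ : ∃ k, q = k + 1 := ⟨q - 1, by omega⟩
      simp only [Nat.add_sub_cancel]
      have : (k + 1) ^ 2 = (k + 1 + 1) * k + 1 := by ring
      omega
    rw [this, Nat.gcd_eq_right (Dvd.intro_left _ rfl)]
    omega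
  · simp only [Finset.mem_filter, Finset.mem_univ, true_and]
    rw [zero_pow (by omega)]
    exact zero_ne_one

theorem exists_trace_eq (hF : Fintype.card F = q ^ 2) (c : F) (hc : c ^ q = c) :
    ∃ t : F, t + t ^ q = c := by
  have hq := herm_q_pos hF
  obtain ⟨t0, ht0⟩ : ∃ t0 : F, t0 + t0 ^ q ≠ 0 := by
    by_contra hcon
    push Not at hcon
    have h1 : (1 : F) + 1 = 0 := by simpa using hcon 1
    have h2 : ∀ t : F, t ^ q = t := by
      intro t
      have := hcon t
      linear_combination this - t * h1
    have h3 := card_fixed hF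
    have h4 : Nat.card {c : F // c ^ q = c} = Nat.card F :=
      Nat.card_congr (Equiv.subtypeUnivEquiv h2)
    rw [h3, Nat.card_eq_fintype_card, hF] at h4
    nlinarith
  set τ := t0 + t0 ^ q with hτ
  have hτq : τ ^ q = τ := by
    rw [hτ, frob_add hF, frob_frob hF, add_comm]
  refine ⟨(c / τ) * t0, ?_⟩
  rw [mul_pow, div_pow, hc, hτq]
  field_simp
  rw [hτ]

theorem exists_herm_eq_one (n : ℕ) (u : Fin n → F) (hu : u ≠ 0) :
    ∃ v0, hermForm n F q v0 u = 1 := by
  obtain ⟨i, hi⟩ : ∃ i, u i ≠ 0 := by
    by_contra hcon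
    push Not at hcon
    exact hu (funext hcon)
  refine ⟨((u i) ^ q)⁻¹ • Pi.single i 1, ?_⟩
  rw [herm_smul_left, herm_single_left, inv_mul_cancel₀ (pow_ne_zero _ hi)]

theorem card_herm_eq (n : ℕ) (u : Fin n → F) (hu : u ≠ 0) (c : F) :
    Fintype.card F * Nat.card {v : Fin n → F // hermForm n F q v u = c} = Fintype.card F ^ n := by
  classical
  obtain ⟨v0, hv0⟩ := exists_herm_eq_one (q := q) n u hu
  have hfib : ∀ c' : F, Nat.card {v : Fin n → F // hermForm n F q v u = c'}
      = Nat.card {v : Fin n → F // hermForm n F q v u = c} := by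
    intro c'
    refine Nat.card_congr ⟨fun v => ⟨v.1 + (c - c') • v0, ?_⟩, fun v => ⟨v.1 - (c - c') • v0, ?_⟩,
      ?_, ?_⟩
    · rw [herm_add_left, herm_smul_left, hv0, v.2]; ring
    · rw [herm_sub_left, herm_smul_left, hv0, v.2]; ring
    · intro v; ext1; simp
    · intro v; ext1; simp
  have htot : Nat.card (Fin n → F)
      = ∑ c' : F, Nat.card {v : Fin n → F // hermForm n F q v u = c'} := by
    rw [Nat.card_congr (Equiv.sigmaFiberEquiv (fun v : Fin n → F => hermForm n F q v u)).symm,
      Nat.card_sigma]
  rw [Finset.sum_congr rfl fun c _ => hfib c, Finset.sum_const, smul_eq_mul, Finset.card_univ,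
    Nat.card_eq_fintype_card, Fintype.card_fun, Fintype.card_fin] at htot
  rw [← htot]

theorem card_iso_one (hF : Fintype.card F = q ^ 2) (n : ℕ) (u : Fin n → F)
    (hu : hermForm n F q u u = 0) :
    q * Nat.card {v : Fin n → F // hermForm n F q v u = 1 ∧ hermForm n F q v v = 0}
      = Nat.card {v : Fin n → F // hermForm n F q v u = 1} := by
  classical
  rw [card_eq_sum_fiber (fun v : Fin n → F => hermForm n F q v u = 1)
    (fun v => hermForm n F q v v)]
  have h : ∀ c : F, Nat.card {v : Fin n → F // hermForm n F q v u = 1 ∧ hermForm n F q v v = c}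
      = if c ^ q = c then
          Nat.card {v : Fin n → F // hermForm n F q v u = 1 ∧ hermForm n F q v v = 0} else 0 := by
    intro c
    split_ifs with hc
    · obtain ⟨t, ht⟩ := exists_trace_eq hF c hc
      have key : ∀ (s : F) (v : Fin n → F), hermForm n F q v u = 1 →
          hermForm n F q (v + s • u) (v + s • u) = hermForm n F q v v + (s + s ^ q) := by
        intro s v hv
        have hv' : hermForm n F q u v = 1 := by rw [← herm_conj hF, hv, one_pow]
        rw [herm_add_left, herm_add_right hF, herm_add_right hF, herm_smul_left, herm_smul_left,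
          herm_smul_right, herm_smul_right, hu, hv, hv']
        ring
      refine Nat.card_congr ⟨fun v => ⟨v.1 + (-t) • u, ?_, ?_⟩, fun v => ⟨v.1 + t • u, ?_, ?_⟩,
        ?_, ?_⟩
      · rw [herm_add_left, herm_smul_left, hu, v.2.1]; ring
      · rw [key _ _ v.2.1, v.2.2, frob_neg hF, ← ht]; ring
      · rw [herm_add_left, herm_smul_left, hu, v.2.1]; ring
      · rw [key _ _ v.2.1, v.2.2, ht]; ring
      · intro v; ext1; simp
      · intro v; ext1; simp
    · rw [Nat.card_eq_zero]
      left
      refine ⟨fun v => hc ?_⟩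
      rw [← v.2.2, herm_conj hF]
  rw [Finset.sum_congr rfl fun c _ => h c, sum_ite_const', card_fixed hF]
  simp

theorem card_iso_perp (n : ℕ) (u : Fin n → F) :
    Nat.card {v : Fin n → F // hermForm n F q v v = 0 ∧ hermForm n F q v u = 0}
      + (Fintype.card F - 1)
        * Nat.card {v : Fin n → F // hermForm n F q v u = 1 ∧ hermForm n F q v v = 0}
      = hcnt F q n 0 := by
  classical
  unfold hcnt
  rw [card_eq_sum_fiber (fun v : Fin n → F => hermForm n F q v v = 0)
    (fun v => hermForm n F q v u)]
  have h : ∀ c : F, Nat.card {v : Fin n → F // hermForm n F q v v = 0 ∧ hermForm n F q v u = c}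
      = if c = 0 then
          Nat.card {v : Fin n → F // hermForm n F q v v = 0 ∧ hermForm n F q v u = 0}
        else Nat.card {v : Fin n → F // hermForm n F q v u = 1 ∧ hermForm n F q v v = 0} := by
    intro c
    split_ifs with hc
    · rw [hc]
    · refine Nat.card_congr ⟨fun v => ⟨c⁻¹ • v.1, ?_, ?_⟩, fun v => ⟨c • v.1, ?_, ?_⟩, ?_, ?_⟩
      · rw [herm_smul_left, v.2.2, inv_mul_cancel₀ hc]
      · rw [herm_smul_left, herm_smul_right, v.2.1]; ring
      · rw [herm_smul_left, herm_smul_right, v.2.2]; ring
      · rw [herm_smul_left, v.2.1, mul_one]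
      · intro v; ext1; simp [smul_smul, hc]
      · intro v; ext1; simp [smul_smul, hc]
  rw [Finset.sum_congr rfl fun c _ => h c, sum_ite_const']
  simp

theorem ti_span_pair_iff (hF : Fintype.card F = q ^ 2) (n : ℕ) (u v : Fin n → F) :
    (∀ x ∈ Submodule.span F {u, v}, ∀ y ∈ Submodule.span F {u, v}, hermForm n F q x y = 0) ↔
      hermForm n F q u u = 0 ∧ hermForm n F q v v = 0 ∧ hermForm n F q v u = 0 := by
  constructor
  · intro h
    have hu : u ∈ Submodule.span F {u, v} := Submodule.subset_span (by simp)
    have hv : v ∈ Submodule.span F {u, v} := Submodule.subset_span (by simp)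
    exact ⟨h u hu u hu, h v hv v hv, h v hv u hu⟩
  · rintro ⟨h1, h2, h3⟩ x hx y hy
    have h4 : hermForm n F q u v = 0 := by
      rw [← herm_conj hF, h3, zero_pow (by have := herm_q_pos hF; omega)]
    obtain ⟨a, b, rfl⟩ := Submodule.mem_span_pair.mp hx
    obtain ⟨c, d, rfl⟩ := Submodule.mem_span_pair.mp hy
    rw [herm_add_left, herm_add_right hF, herm_add_right hF]
    simp only [herm_smul_left, herm_smul_right, h1, h2, h3, h4]
    ring

/-- counting totally isotropic lines of the hermitian space. -/
theorem card_TI_lines (hF : Fintype.card F = q ^ 2) (n : ℕ) (N B : ℕ)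
    (hB : q ^ 3 * B = (q ^ 2) ^ n) (hN : N + (q ^ 2 - 1) * B = hcnt F q n 0) :
    Nat.card {W : Submodule F (Fin n → F) // Module.finrank F W = 2 ∧
        ∀ u ∈ W, ∀ v ∈ W, hermForm n F q u v = 0}
      * (((q ^ 2) ^ 2 - 1) * ((q ^ 2) ^ 2 - q ^ 2)) = (hcnt F q n 0 - 1) * (N - q ^ 2) := by
  classical
  have hq := herm_q_pos hF
  have h := card_frames_two (K := F) (V := Fin n → F)
    (fun W => ∀ u ∈ W, ∀ v ∈ W, hermForm n F q u v = 0)
  rw [hF] at h
  rw [← h, card_prod_subtype (fun u v : Fin n → F => LinearIndependent F ![u, v] ∧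
    ∀ x ∈ Submodule.span F {u, v}, ∀ y ∈ Submodule.span F {u, v}, hermForm n F q x y = 0)]
  have hterm : ∀ u : Fin n → F, Nat.card {v : Fin n → F // LinearIndependent F ![u, v] ∧
      ∀ x ∈ Submodule.span F {u, v}, ∀ y ∈ Submodule.span F {u, v}, hermForm n F q x y = 0}
      = if (hermForm n F q u u = 0 ∧ ¬ u = 0) then N - q ^ 2 else 0 := by
    intro u
    split_ifs with hu
    · obtain ⟨hu1, hu0⟩ := hu
      have hB' : Nat.card {v : Fin n → F // hermForm n F q v u = 1 ∧ hermForm n F q v v = 0}
          = B := by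
        have h1 := card_iso_one hF n u hu1
        have h2 := card_herm_eq (q := q) n u hu0 1
        rw [← h1, hF] at h2
        have h3 : q ^ 3 * Nat.card {v : Fin n → F // hermForm n F q v u = 1 ∧
            hermForm n F q v v = 0} = q ^ 3 * B := by
          rw [hB, ← h2]; ring
        exact Nat.eq_of_mul_eq_mul_left (by positivity) h3
      have hN' : Nat.card {v : Fin n → F // hermForm n F q v v = 0 ∧ hermForm n F q v u = 0}
          = N := by
        have h1 := card_iso_perp (q := q) n u
        rw [hB', hF, ← hN] at h1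
        exact Nat.add_right_cancel h1
      have hE : Nat.card {v : Fin n → F // ∃ a : F, a • u = v} = q ^ 2 := by
        have : Function.Injective (fun a : F => a • u) := smul_left_injective F hu0
        have h1 := Nat.card_range_of_injective this
        rw [Nat.card_eq_fintype_card (α := F), hF] at h1
        exact h1
      rw [← hN', ← hE, ← card_and_not]
      · refine Nat.card_congr (Equiv.subtypeEquivRight fun v => ?_)
        rw [ti_span_pair_iff hF, LinearIndependent.pair_iff' hu0]
        constructor
        · rintro ⟨h1, -, h2, h3⟩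
          exact ⟨⟨h2, h3⟩, fun ⟨a, ha⟩ => h1 a ha⟩
        · rintro ⟨⟨h2, h3⟩, h1⟩
          exact ⟨fun a ha => h1 ⟨a, ha⟩, hu1, h2, h3⟩
      · rintro v ⟨a, rfl⟩
        constructor
        · rw [herm_smul_left, herm_smul_right, hu1]; ring
        · rw [herm_smul_left, hu1, mul_zero]
    · rw [Nat.card_eq_zero]
      left
      refine ⟨fun v => hu ⟨?_, ?_⟩⟩
      · exact ((ti_span_pair_iff hF n u v.1).mp v.2.2).1
      · have := v.2.1.ne_zero 0
        simpa using this
  rw [Finset.sum_congr rfl fun u _ => hterm u, sum_ite_const', mul_zero, add_zero]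
  congr 1
  rw [card_and_not (fun u : Fin n → F => hermForm n F q u u = 0) (fun u => u = 0)]
  · simp [hcnt]
  · rintro v rfl
    simp [hermForm, zero_pow (by omega : q ≠ 0)]

end Cfsg.Agent.Lib.Helper12
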