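import Mathlib
import Cfsg.Agent.Lib.Helper12.Frames
import Cfsg.Agent.Lib.Helper12.UnitaryIso

set_option autoImplicit false

namespace Cfsg.Agent.Lib.Helper12

open Module

variable {K V : Type*} [Field K] [Fintype K] [AddCommGroup V] [Module K V] [Finite V]

/-- counting the 2-dimensional subspaces through a given vector. -/
theorem card_frames_through (v : V) (hv : v ≠ 0) (P : Submodule K V → Prop) :
    Nat.card {w : V // LinearIndependent K ![v, w] ∧ P (Submodule.span K {v, w})}
      = Nat.card {W : Submodule K V // finrank K W = 2 ∧ v ∈ W ∧ P W}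
        * (Fintype.card K ^ 2 - Fintype.card K) := by
  classical
  have := finite_submodule' (K := K) (V := V)
  have : Fintype {W : Submodule K V // finrank K W = 2 ∧ v ∈ W ∧ P W} := Fintype.ofFinite _
  have hrank : ∀ w : V, LinearIndependent K ![v, w] → finrank K (Submodule.span K {v, w}) = 2 := by
    intro w hw
    have h1 := finrank_span_eq_card hw
    have : Set.range ![v, w] = {v, w} := by
      simp [Matrix.range_cons, Set.pair_comm]
    rw [this, Fintype.card_fin] at h1
    exact h1
  let π : {w : V // LinearIndependent K ![v, w] ∧ P (Submodule.span K {v, w})} →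
      {W : Submodule K V // finrank K W = 2 ∧ v ∈ W ∧ P W} :=
    fun w => ⟨Submodule.span K {v, w.1}, hrank w.1 w.2.1, Submodule.subset_span (by simp), w.2.2⟩
  have hfib : ∀ W : {W : Submodule K V // finrank K W = 2 ∧ v ∈ W ∧ P W},
      Nat.card {a // π a = W} = Fintype.card K ^ 2 - Fintype.card K := by
    intro W
    have hW : Nat.card {w : V // w ∈ W.1} = Fintype.card K ^ 2 := by
      have := Module.natCard_eq_pow_finrank (K := K) (V := W.1)
      rw [W.2.1, Nat.card_eq_fintype_card (α := K)] at this
      exact this
    have hE : Nat.card {w : V // ∃ a : K, a • v = w} = Fintype.card K := by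
      have : Function.Injective (fun a : K => a • v) := smul_left_injective K hv
      have h1 := Nat.card_range_of_injective this
      rw [Nat.card_eq_fintype_card (α := K)] at h1
      exact h1
    rw [← hW, ← hE, ← card_and_not]
    · refine Nat.card_congr ⟨fun a => ⟨a.1.1, ?_, ?_⟩, fun w => ⟨⟨w.1, ?_, ?_⟩, ?_⟩, ?_, ?_⟩
      · have : Submodule.span K {v, a.1.1} = W.1 := congrArg Subtype.val a.2
        rw [← this]
        exact Submodule.subset_span (by simp)
      · rintro ⟨c, hc⟩
        exact (LinearIndependent.pair_iff' hv).mp a.1.2.1 c hc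
      · exact (LinearIndependent.pair_iff' hv).mpr fun c hc => w.2.2 ⟨c, hc⟩
      · have hli : LinearIndependent K ![v, w.1] :=
          (LinearIndependent.pair_iff' hv).mpr fun c hc => w.2.2 ⟨c, hc⟩
        have hle : Submodule.span K {v, w.1} ≤ W.1 := by
          rw [Submodule.span_le]
          rintro x (rfl | rfl)
          · exact W.2.2.1
          · exact w.2.1
        have : Submodule.span K {v, w.1} = W.1 :=
          Submodule.eq_of_le_of_finrank_eq hle (by rw [hrank _ hli, W.2.1])
        rw [this]; exact W.2.2.2
      · have hli : LinearIndependent K ![v, w.1] :=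
          (LinearIndependent.pair_iff' hv).mpr fun c hc => w.2.2 ⟨c, hc⟩
        have hle : Submodule.span K {v, w.1} ≤ W.1 := by
          rw [Submodule.span_le]
          rintro x (rfl | rfl)
          · exact W.2.2.1
          · exact w.2.1
        exact Subtype.ext (Submodule.eq_of_le_of_finrank_eq hle (by rw [hrank _ hli, W.2.1]))
      · intro a; rfl
      · intro w; rfl
    · rintro w ⟨a, rfl⟩
      exact W.1.smul_mem a W.2.2.1
  rw [Nat.card_congr (Equiv.sigmaFiberEquiv π).symm, Nat.card_sigma,
    Finset.sum_congr rfl fun W _ => hfib W, Finset.sum_const, smul_eq_mul, Finset.card_univ,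
    Nat.card_eq_fintype_card]

end Cfsg.Agent.Lib.Helper12
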