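import Mathlib
import Cfsg.Agent.Lib.Helper12.SympRep

set_option autoImplicit false

namespace Cfsg.Agent.Lib.Helper12

open Matrix

variable {F : Type*} [Field F] {ι : Type*} [Fintype ι] [DecidableEq ι]

/-- a complement of the all-ones vector in the sum-zero hyperplane. -/
def heartSub (F : Type*) [Field F] {ι : Type*} [Fintype ι] (o : ι) : Submodule F (ι → F) where
  carrier := {x | ∑ i, x i = 0 ∧ x o = 0}
  add_mem' := by
    intro a b ha hb
    exact ⟨by simp [Finset.sum_add_distrib, ha.1, hb.1], by simp [ha.2, hb.2]⟩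
  zero_mem' := ⟨by simp, rfl⟩
  smul_mem' := by
    intro c a ha
    exact ⟨by simp [← Finset.mul_sum, ha.1], by simp [ha.2]⟩

/-- the twisted permutation action. -/
def heartMap (F : Type*) [Field F] {ι : Type*} (o : ι) (σ : Equiv.Perm ι) :
    (ι → F) →ₗ[F] (ι → F) where
  toFun x i := x (σ⁻¹ i) - x (σ⁻¹ o)
  map_add' x y := by funext i; simp only [Pi.add_apply]; ring
  map_smul' c x := by funext i; simp only [Pi.smul_apply, smul_eq_mul, RingHom.id_apply]; ring

omit [Fintype ι] [DecidableEq ι] in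
theorem heartMap_apply (o : ι) (σ : Equiv.Perm ι) (x : ι → F) (i : ι) :
    heartMap F o σ x i = x (σ⁻¹ i) - x (σ⁻¹ o) := rfl

omit [DecidableEq ι] in
theorem heartMap_mem (hN : ((Fintype.card ι : ℕ) : F) = 0) (o : ι) (σ : Equiv.Perm ι)
    (x : ι → F) (hx : x ∈ heartSub F o) : heartMap F o σ x ∈ heartSub F o := by
  refine ⟨?_, ?_⟩
  · simp only [heartMap_apply, Finset.sum_sub_distrib, Finset.sum_const, Finset.card_univ,
      nsmul_eq_mul, hN, zero_mul, sub_zero]
    rw [Equiv.sum_comp σ⁻¹ x]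
    exact hx.1
  · simp [heartMap_apply]

/-- the representation on the heart. -/
def heartRep (hN : ((Fintype.card ι : ℕ) : F) = 0) (o : ι) :
    Equiv.Perm ι →* Module.End F (heartSub F o) where
  toFun σ := (heartMap F o σ).restrict (heartMap_mem hN o σ)
  map_one' := by
    apply LinearMap.ext
    intro x
    apply Subtype.ext
    funext i
    show (x : ι → F) i - (x : ι → F) o = (x : ι → F) i
    rw [x.2.2, sub_zero]
  map_mul' σ τ := by
    apply LinearMap.ext
    intro x
    apply Subtype.ext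
    funext i
    show (x : ι → F) ((σ * τ)⁻¹ i) - (x : ι → F) ((σ * τ)⁻¹ o)
      = ((x : ι → F) (τ⁻¹ (σ⁻¹ i)) - (x : ι → F) (τ⁻¹ o))
        - ((x : ι → F) (τ⁻¹ (σ⁻¹ o)) - (x : ι → F) (τ⁻¹ o))
    simp only [_root_.mul_inv_rev, Equiv.Perm.mul_apply]
    ring

omit [DecidableEq ι] in
theorem heartRep_apply (hN : ((Fintype.card ι : ℕ) : F) = 0) (o : ι) (σ : Equiv.Perm ι)
    (x : heartSub F o) (i : ι) :
    (heartRep hN o σ x : ι → F) i = (x : ι → F) (σ⁻¹ i) - (x : ι → F) (σ⁻¹ o) := rfl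

/-- the dot product as a bilinear form. -/
def dotB (F : Type*) [Field F] (ι : Type*) [Fintype ι] : LinearMap.BilinForm F (ι → F) :=
  LinearMap.mk₂ F (fun x y => x ⬝ᵥ y) add_dotProduct smul_dotProduct dotProduct_add
    dotProduct_smul

omit [DecidableEq ι] in
theorem dotB_apply (x y : ι → F) : dotB F ι x y = x ⬝ᵥ y := rfl

omit [DecidableEq ι] in
theorem heart_pres (hN : ((Fintype.card ι : ℕ) : F) = 0) (o : ι) (σ : Equiv.Perm ι)
    (x y : heartSub F o) :
    (dotB F ι).restrict (heartSub F o) (heartRep hN o σ x) (heartRep hN o σ y)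
      = (dotB F ι).restrict (heartSub F o) x y := by
  show (heartRep hN o σ x : ι → F) ⬝ᵥ (heartRep hN o σ y : ι → F) = (x : ι → F) ⬝ᵥ (y : ι → F)
  simp only [dotProduct, heartRep_apply]
  have h1 : ∀ i, ((x : ι → F) (σ⁻¹ i) - (x : ι → F) (σ⁻¹ o)) *
      ((y : ι → F) (σ⁻¹ i) - (y : ι → F) (σ⁻¹ o))
      = (x : ι → F) (σ⁻¹ i) * (y : ι → F) (σ⁻¹ i) - (y : ι → F) (σ⁻¹ o) * (x : ι → F) (σ⁻¹ i)
        - (x : ι → F) (σ⁻¹ o) * (y : ι → F) (σ⁻¹ i)
        + (x : ι → F) (σ⁻¹ o) * (y : ι → F) (σ⁻¹ o) := by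
    intro i; ring
  simp only [h1, Finset.sum_add_distrib, Finset.sum_sub_distrib, ← Finset.mul_sum,
    Finset.sum_const, Finset.card_univ, nsmul_eq_mul, hN, zero_mul, add_zero]
  rw [Equiv.sum_comp σ⁻¹ (x : ι → F), Equiv.sum_comp σ⁻¹ (y : ι → F),
    Equiv.sum_comp σ⁻¹ (fun i => (x : ι → F) i * (y : ι → F) i), x.2.1, y.2.1]
  simp

omit [DecidableEq ι] in
theorem heart_alt [CharP F 2] (o : ι) : ((dotB F ι).restrict (heartSub F o)).IsAlt := by
  intro x
  show (x : ι → F) ⬝ᵥ (x : ι → F) = 0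
  simp only [dotProduct, ← pow_two]
  rw [← sum_pow_char 2, x.2.1]
  simp

theorem single_sub_mem (o p c : ι) (hp : p ≠ o) (hc : c ≠ o) :
    (Pi.single p 1 - Pi.single c 1 : ι → F) ∈ heartSub F o := by
  refine ⟨?_, ?_⟩
  · simp [Finset.sum_sub_distrib]
  · simp [Pi.single_apply, hp.symm, hc.symm]

theorem heart_nd (hN : ((Fintype.card ι : ℕ) : F) = 0) (o i₀ : ι) (hi₀ : i₀ ≠ o)
    (x : ι → F) (hx : x ∈ heartSub F o) (h : ∀ y ∈ heartSub F o, x ⬝ᵥ y = 0) : x = 0 := by
  have h1 : ∀ i, i ≠ o → x i = x i₀ := by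
    intro i hi
    have := h _ (single_sub_mem (F := F) o i i₀ hi hi₀)
    rw [dotProduct_sub] at this
    simpa [sub_eq_zero] using this
  have h2 : ∑ i, x i = ((Fintype.card ι - 1 : ℕ) : F) * x i₀ := by
    rw [← Finset.add_sum_erase Finset.univ x (Finset.mem_univ o), hx.2, zero_add,
      Finset.sum_congr rfl (fun i hi => h1 i (Finset.ne_of_mem_erase hi)), Finset.sum_const,
      Finset.card_erase_of_mem (Finset.mem_univ o), Finset.card_univ, nsmul_eq_mul]
  have h3 : ((Fintype.card ι - 1 : ℕ) : F) = -1 := by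
    have : 1 ≤ Fintype.card ι := Fintype.card_pos_iff.2 ⟨o⟩
    rw [Nat.cast_sub this, hN]
    simp
  rw [hx.1, h3] at h2
  have h4 : x i₀ = 0 := by linear_combination h2
  funext i
  by_cases hi : i = o
  · rw [hi, hx.2]; rfl
  · rw [h1 i hi, h4]; rfl

theorem heart_nondeg (hN : ((Fintype.card ι : ℕ) : F) = 0) (o i₀ : ι) (hi₀ : i₀ ≠ o) :
    ((dotB F ι).restrict (heartSub F o)).Nondegenerate := by
  constructor
  · intro x hx
    apply Subtype.ext
    exact heart_nd hN o i₀ hi₀ x x.2 (fun y hy => hx ⟨y, hy⟩)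
  · intro x hx
    apply Subtype.ext
    refine heart_nd hN o i₀ hi₀ x x.2 (fun y hy => ?_)
    rw [dotProduct_comm]
    exact hx ⟨y, hy⟩

theorem heart_finrank (o i₀ : ι) (hi₀ : i₀ ≠ o) :
    Module.finrank F (heartSub F o) + 2 = Fintype.card ι := by
  let L : (ι → F) →ₗ[F] F × F :=
    { toFun := fun x => (∑ i, x i, x o)
      map_add' := by intro x y; simp [Finset.sum_add_distrib]
      map_smul' := by intro c x; simp [Finset.mul_sum] }
  have hker : LinearMap.ker L = heartSub F o := by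
    ext x
    rw [LinearMap.mem_ker]
    show (∑ i, x i, x o) = 0 ↔ (∑ i, x i = 0 ∧ x o = 0)
    rw [Prod.mk_eq_zero]
  have hrange : LinearMap.range L = ⊤ := by
    rw [LinearMap.range_eq_top]
    rintro ⟨a, b⟩
    refine ⟨Pi.single o b + Pi.single i₀ (a - b), ?_⟩
    show (∑ i, (Pi.single o b + Pi.single i₀ (a - b) : ι → F) i,
      (Pi.single o b + Pi.single i₀ (a - b) : ι → F) o) = (a, b)
    simp [Finset.sum_add_distrib, Pi.single_apply, hi₀.symm]
  have h1 := LinearMap.finrank_range_add_finrank_ker L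
  rw [hker, hrange, finrank_top, Module.finrank_prod, Module.finrank_self,
    Module.finrank_fintype_fun_eq_card] at h1
  omega

theorem exists_fresh (l : List ι) (h : l.length < Fintype.card ι) : ∃ c, c ∉ l := by
  by_contra hcon
  push Not at hcon
  have h1 : l.toFinset = Finset.univ := by
    ext c; simp [hcon c]
  have h2 := List.toFinset_card_le l
  rw [h1, Finset.card_univ] at h2
  omega

theorem eq_one_of_key (o : ι) (h6 : 6 ≤ Fintype.card ι) (τ : Equiv.Perm ι)
    (key : ∀ x ∈ heartSub F o, ∀ i j, x (τ i) - x (τ j) = x i - x j) : τ = 1 := by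
  by_contra hne
  obtain ⟨i, hi⟩ : ∃ i, τ i ≠ i := by
    by_contra hc
    push Not at hc
    exact hne (Equiv.ext hc)
  by_cases hu : τ i = o
  · have hio : i ≠ o := fun h => hi (by rw [hu, h])
    obtain ⟨j, hj⟩ := exists_fresh [i, τ.symm i] (by simp; omega)
    simp only [List.mem_cons, List.not_mem_nil, or_false, not_or] at hj
    obtain ⟨c, hc⟩ := exists_fresh [o, i, j, τ j] (by simp; omega)
    simp only [List.mem_cons, List.not_mem_nil, or_false, not_or] at hc
    have h1 := key _ (single_sub_mem (F := F) o i c hio hc.1) i j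
    have h2 : τ j ≠ i := by
      intro h
      apply hj.2
      rw [← h, Equiv.symm_apply_apply]
    rw [hu] at h1
    simp [Pi.single_apply, hio.symm, Ne.symm hc.1, h2, Ne.symm hc.2.2.2, Ne.symm hc.2.1, hj.1,
      Ne.symm hc.2.2.1] at h1
  · obtain ⟨j, hj⟩ := exists_fresh [i, τ i] (by simp; omega)
    simp only [List.mem_cons, List.not_mem_nil, or_false, not_or] at hj
    obtain ⟨c, hc⟩ := exists_fresh [o, τ i, i, j, τ j] (by simp; omega)
    simp only [List.mem_cons, List.not_mem_nil, or_false, not_or] at hc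
    have h1 := key _ (single_sub_mem (F := F) o (τ i) c hu hc.1) i j
    have h2 : τ j ≠ τ i := fun h => hj.1 (τ.injective h)
    simp [Pi.single_apply, Ne.symm hc.2.1, h2, Ne.symm hc.2.2.2.2, Ne.symm hi,
      Ne.symm hc.2.2.1, hj.2, hj.1, Ne.symm hc.2.2.2.1] at h1

theorem heartRep_injective (hN : ((Fintype.card ι : ℕ) : F) = 0) (o : ι)
    (h6 : 6 ≤ Fintype.card ι) : Function.Injective (heartRep (F := F) hN o) := by
  rw [injective_iff_map_eq_one]
  intro σ hσ
  have hstar : ∀ x ∈ heartSub F o, ∀ i, x (σ⁻¹ i) - x (σ⁻¹ o) = x i := by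
    intro x hx i
    have := congrArg (fun T : Module.End F (heartSub F o) => ((T ⟨x, hx⟩ : heartSub F o) : ι → F) i) hσ
    exact this
  have key : ∀ x ∈ heartSub F o, ∀ i j, x (σ⁻¹ i) - x (σ⁻¹ j) = x i - x j := by
    intro x hx i j
    rw [← hstar x hx i, ← hstar x hx j]
    ring
  have hτ : σ⁻¹ = 1 := eq_one_of_key o h6 σ⁻¹ key
  rw [← inv_inv σ, hτ, inv_one]

/-- `S_{2n}` embeds in `Sp_{2n-2}` in characteristic 2. -/
theorem symm_embeds_sp (F : Type*) [Field F] [CharP F 2] (n : ℕ) (hn : 3 ≤ n) :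
    ∃ f : Equiv.Perm (Fin (2 * n)) →* symplecticGroup (Fin (n - 1)) F, Function.Injective f := by
  have hN : ((Fintype.card (Fin (2 * n)) : ℕ) : F) = 0 := by
    rw [Fintype.card_fin, Nat.cast_mul]
    have : ((2 : ℕ) : F) = 0 := CharP.cast_eq_zero F 2
    rw [this, zero_mul]
  let o : Fin (2 * n) := ⟨0, by omega⟩
  let i₀ : Fin (2 * n) := ⟨1, by omega⟩
  have hi₀ : i₀ ≠ o := by
    intro h
    have := congrArg Fin.val h
    simp [i₀, o] at this
  have hd : Module.finrank F (heartSub F o) = 2 * (n - 1) := by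
    have := heart_finrank (F := F) o i₀ hi₀
    rw [Fintype.card_fin] at this
    omega
  exact exists_hom_symp_of_rep _ (heart_alt o) (heart_nondeg hN o i₀ hi₀) hd (heartRep hN o)
    (heartRep_injective hN o (by rw [Fintype.card_fin]; omega)) (heart_pres hN o)

end Cfsg.Agent.Lib.Helper12
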