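import Mathlib
import Cfsg.Agent.Lib.Helper16.Transport

set_option autoImplicit false

namespace Cfsg.Agent.Lib.Helper12

open Matrix

/-- a faithful representation preserving a quadratic form gives an embedding in the isometry
group. -/
theorem exists_hom_iso_of_rep {F : Type*} [Field F] {κ : Type} [Fintype κ] [DecidableEq κ]
    {V : Type*} [AddCommGroup V] [Module F V] (ψ : (κ → F) ≃ₗ[F] V) (Qv : V → F)
    (Q : (κ → F) → F) (hψ : ∀ x, Qv (ψ x) = Q x) {G : Type*} [Group G]
    (ρ : G →* Module.End F V) (hρ : Function.Injective ρ) (hQ : ∀ g v, Qv (ρ g v) = Qv v) :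
    ∃ f : G →* Cfsg.isometryGroup F Q, Function.Injective f := by
  let r : G →* Matrix κ κ F :=
    { toFun := fun g => LinearMap.toMatrix' (ψ.symm.toLinearMap ∘ₗ ρ g ∘ₗ ψ.toLinearMap)
      map_one' := by
        rw [map_one, ← LinearMap.toMatrix'_id]
        congr 1
        ext x
        simp
      map_mul' := by
        intro a b
        rw [← LinearMap.toMatrix'_comp]
        congr 1
        apply LinearMap.ext
        intro x
        simp }
  have hr : ∀ g x, r g *ᵥ x = ψ.symm (ρ g (ψ x)) := by
    intro g x
    show LinearMap.toMatrix' _ *ᵥ x = _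
    rw [LinearMap.toMatrix'_mulVec]
    rfl
  apply Cfsg.Agent.Lib.Helper16.exists_hom_isometryGroup r
  · intro a b hab
    apply hρ
    apply LinearMap.ext
    intro v
    have h1 := congrArg (fun M => M *ᵥ ψ.symm v) hab
    simp only [hr, LinearEquiv.apply_symm_apply] at h1
    exact ψ.symm.injective h1
  · intro g w
    rw [hr, ← hψ, LinearEquiv.apply_symm_apply, hQ, hψ]

/-- the second elementary symmetric function. -/
def e2 {R : Type*} [CommRing R] {ι : Type*} [Fintype ι] [LinearOrder ι] (x : ι → R) : R :=
  ∑ i, ∑ j, if i < j then x i * x j else 0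

theorem sum_sum_eq_lt {R : Type*} [CommRing R] {ι : Type*} [Fintype ι] [LinearOrder ι]
    (h : ι → ι → R) (h0 : ∀ a, h a a = 0) :
    ∑ a, ∑ b, h a b = ∑ a, ∑ b, if a < b then h a b + h b a else 0 := by
  have h1 : ∀ a b, h a b = (if a < b then h a b else 0) + (if b < a then h a b else 0) := by
    intro a b
    rcases lt_trichotomy a b with hab | hab | hab
    · simp [hab, not_lt.2 hab.le]
    · subst hab; simp [h0]
    · simp [hab, not_lt.2 hab.le]
  have h2 : ∑ a, ∑ b, (if b < a then h a b else 0) = ∑ a, ∑ b, (if a < b then h b a else 0) :=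
    Finset.sum_comm
  calc ∑ a, ∑ b, h a b
      = ∑ a, ∑ b, ((if a < b then h a b else 0) + (if b < a then h a b else 0)) := by
        apply Finset.sum_congr rfl; intro a _
        apply Finset.sum_congr rfl; intro b _
        exact h1 a b
    _ = ∑ a, ∑ b, (if a < b then h a b else 0) + ∑ a, ∑ b, (if a < b then h b a else 0) := by
        simp only [Finset.sum_add_distrib]
        rw [h2]
    _ = _ := by
        rw [← Finset.sum_add_distrib]
        apply Finset.sum_congr rfl; intro a _
        rw [← Finset.sum_add_distrib]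
        apply Finset.sum_congr rfl; intro b _
        split_ifs <;> simp

theorem e2_perm {R : Type*} [CommRing R] {ι : Type*} [Fintype ι] [LinearOrder ι]
    (x : ι → R) (σ : Equiv.Perm ι) : e2 (fun i => x (σ i)) = e2 x := by
  unfold e2
  have h1 : ∑ i, ∑ j, (if i < j then x (σ i) * x (σ j) else 0)
      = ∑ a, ∑ b, (if σ.symm a < σ.symm b then x a * x b else 0) := by
    rw [← Equiv.sum_comp σ (fun a => ∑ b, (if σ.symm a < σ.symm b then x a * x b else 0))]
    apply Finset.sum_congr rfl; intro i _
    rw [← Equiv.sum_comp σ (fun b => (if σ.symm (σ i) < σ.symm b then x (σ i) * x b else 0))]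
    apply Finset.sum_congr rfl; intro j _
    rw [Equiv.symm_apply_apply, Equiv.symm_apply_apply]
  rw [h1, sum_sum_eq_lt _ (by intro a; simp)]
  apply Finset.sum_congr rfl; intro a _
  apply Finset.sum_congr rfl; intro b _
  by_cases hab : a < b
  · rw [if_pos hab, if_pos hab]
    have hne : σ.symm a ≠ σ.symm b := fun h => hab.ne (σ.symm.injective h)
    rcases lt_or_gt_of_ne hne with h | h
    · rw [if_pos h, if_neg (not_lt.2 h.le), add_zero]
    · rw [if_neg (not_lt.2 h.le), if_pos h, zero_add, mul_comm]
  · rw [if_neg hab, if_neg hab]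

end Cfsg.Agent.Lib.Helper12
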