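import Mathlib
import Cfsg.Agent.Lib.Helper12.QuadRep

set_option autoImplicit false

namespace Cfsg.Agent.Lib.Helper12

open Matrix MatrixGroups

variable {F : Type*} [Field F]

/-- linear automorphisms of `M₂(F)` preserving the determinant. -/
def detIso (F : Type*) [Field F] :
    Subgroup (Matrix (Fin 2) (Fin 2) F ≃ₗ[F] Matrix (Fin 2) (Fin 2) F) where
  carrier := {T | ∀ X, (T X).det = X.det}
  mul_mem' := by
    intro a b ha hb X
    rw [LinearEquiv.mul_apply, ha, hb]
  one_mem' := fun X => rfl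
  inv_mem' := by
    intro a ha X
    have := ha (a⁻¹ X)
    rw [← LinearEquiv.mul_apply, mul_inv_cancel] at this
    exact this.symm

theorem sl_val_mul (a b : SL(2, F)) : (a * b).1 = a.1 * b.1 := rfl
theorem sl_val_one : (1 : SL(2, F)).1 = 1 := rfl
theorem sl_inv_mul_val (g : SL(2, F)) : (g⁻¹).1 * g.1 = 1 := by
  rw [← sl_val_mul, inv_mul_cancel, sl_val_one]
theorem sl_mul_inv_val (g : SL(2, F)) : g.1 * (g⁻¹).1 = 1 := by
  rw [← sl_val_mul, mul_inv_cancel, sl_val_one]

/-- left multiplication. -/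
def lmulE (g : SL(2, F)) : Matrix (Fin 2) (Fin 2) F ≃ₗ[F] Matrix (Fin 2) (Fin 2) F where
  toFun X := g.1 * X
  map_add' := Matrix.mul_add _
  map_smul' c X := by simp
  invFun X := (g⁻¹).1 * X
  left_inv X := by
    show (g⁻¹).1 * (g.1 * X) = X
    rw [← Matrix.mul_assoc, sl_inv_mul_val, Matrix.one_mul]
  right_inv X := by
    show g.1 * ((g⁻¹).1 * X) = X
    rw [← Matrix.mul_assoc, sl_mul_inv_val, Matrix.one_mul]

/-- right multiplication by the inverse. -/
def rmulE (g : SL(2, F)) : Matrix (Fin 2) (Fin 2) F ≃ₗ[F] Matrix (Fin 2) (Fin 2) F where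
  toFun X := X * (g⁻¹).1
  map_add' X Y := Matrix.add_mul _ _ _
  map_smul' c X := by simp
  invFun X := X * g.1
  left_inv X := by
    show X * (g⁻¹).1 * g.1 = X
    rw [Matrix.mul_assoc, sl_inv_mul_val, Matrix.mul_one]
  right_inv X := by
    show X * g.1 * (g⁻¹).1 = X
    rw [Matrix.mul_assoc, sl_mul_inv_val, Matrix.mul_one]

theorem lmulE_apply (g : SL(2, F)) (X : Matrix (Fin 2) (Fin 2) F) : lmulE g X = g.1 * X := rfl
theorem rmulE_apply (g : SL(2, F)) (X : Matrix (Fin 2) (Fin 2) F) :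
    rmulE g X = X * (g⁻¹).1 := rfl

/-- left multiplication as a homomorphism. -/
def lmulH (F : Type*) [Field F] : SL(2, F) →* detIso F where
  toFun g := ⟨lmulE g, fun X => by rw [lmulE_apply, det_mul, g.2, one_mul]⟩
  map_one' := by
    apply Subtype.ext
    apply LinearEquiv.ext
    intro X
    show (1 : SL(2, F)).1 * X = X
    rw [sl_val_one, Matrix.one_mul]
  map_mul' a b := by
    apply Subtype.ext
    apply LinearEquiv.ext
    intro X
    show (a * b).1 * X = a.1 * (b.1 * X)
    rw [sl_val_mul, Matrix.mul_assoc]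

/-- right multiplication as a homomorphism. -/
def rmulH (F : Type*) [Field F] : SL(2, F) →* detIso F where
  toFun g := ⟨rmulE g, fun X => by rw [rmulE_apply, det_mul, (g⁻¹).2, mul_one]⟩
  map_one' := by
    apply Subtype.ext
    apply LinearEquiv.ext
    intro X
    show X * ((1 : SL(2, F))⁻¹).1 = X
    rw [inv_one, sl_val_one, Matrix.mul_one]
  map_mul' a b := by
    apply Subtype.ext
    apply LinearEquiv.ext
    intro X
    show X * ((a * b)⁻¹).1 = X * (b⁻¹).1 * (a⁻¹).1
    rw [_root_.mul_inv_rev, sl_val_mul, Matrix.mul_assoc]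

theorem lmulH_apply (g : SL(2, F)) (X : Matrix (Fin 2) (Fin 2) F) :
    (lmulH F g : Matrix (Fin 2) (Fin 2) F ≃ₗ[F] Matrix (Fin 2) (Fin 2) F) X = g.1 * X := rfl
theorem rmulH_apply (g : SL(2, F)) (X : Matrix (Fin 2) (Fin 2) F) :
    (rmulH F g : Matrix (Fin 2) (Fin 2) F ≃ₗ[F] Matrix (Fin 2) (Fin 2) F) X = X * (g⁻¹).1 := rfl

/-- transposition. -/
def trI (F : Type*) [Field F] : detIso F :=
  ⟨Matrix.transposeLinearEquiv (Fin 2) (Fin 2) F F, fun X => det_transpose X⟩

theorem trI_apply (X : Matrix (Fin 2) (Fin 2) F) :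
    (trI F : Matrix (Fin 2) (Fin 2) F ≃ₗ[F] Matrix (Fin 2) (Fin 2) F) X = Xᵀ := rfl

theorem detIso_ext {a b : detIso F} (h : ∀ X, (a : Matrix (Fin 2) (Fin 2) F ≃ₗ[F] Matrix (Fin 2) (Fin 2) F) X
    = (b : Matrix (Fin 2) (Fin 2) F ≃ₗ[F] Matrix (Fin 2) (Fin 2) F) X) : a = b :=
  Subtype.ext (LinearEquiv.ext h)

theorem lmulH_injective : Function.Injective (lmulH F) := by
  intro a b h
  have := congrArg (fun T : detIso F => (T : Matrix (Fin 2) (Fin 2) F ≃ₗ[F] Matrix (Fin 2) (Fin 2) F) 1) h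
  simp only [lmulH_apply, Matrix.mul_one] at this
  exact Subtype.ext this

theorem rmulH_injective : Function.Injective (rmulH F) := by
  intro a b h
  have := congrArg (fun T : detIso F => (T : Matrix (Fin 2) (Fin 2) F ≃ₗ[F] Matrix (Fin 2) (Fin 2) F) 1) h
  simp only [rmulH_apply, Matrix.one_mul] at this
  exact inv_injective (Subtype.ext this)

theorem lmul_rmul_comm (g h : SL(2, F)) : Commute (lmulH F g) (rmulH F h) := by
  apply detIso_ext
  intro X
  show g.1 * (X * (h⁻¹).1) = g.1 * X * (h⁻¹).1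
  rw [Matrix.mul_assoc]

theorem trI_mul_self : trI F * trI F = 1 := by
  apply detIso_ext
  intro X
  show (Xᵀ)ᵀ = X
  rw [transpose_transpose]

theorem trI_conj_lmul (g : SL(2, F)) :
    trI F * lmulH F g * (trI F)⁻¹ = rmulH F (g.transpose)⁻¹ := by
  have h1 : (trI F)⁻¹ = trI F := inv_eq_of_mul_eq_one_left trI_mul_self
  rw [h1]
  apply detIso_ext
  intro X
  show (g.1 * Xᵀ)ᵀ = X * (((g.transpose)⁻¹)⁻¹).1
  rw [inv_inv, transpose_mul, transpose_transpose]
  rfl

/-- coordinates identifying the hyperbolic form in dimension 4 with the determinant. -/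
def m2Coord (F : Type*) [Field F] : (Fin 2 ⊕ Fin 2 → F) ≃ₗ[F] Matrix (Fin 2) (Fin 2) F where
  toFun v := !![v (Sum.inl 0), v (Sum.inl 1); - v (Sum.inr 1), v (Sum.inr 0)]
  map_add' v w := by
    ext i j; fin_cases i <;> fin_cases j <;> simp [add_comm]
  map_smul' c v := by
    ext i j; fin_cases i <;> fin_cases j <;> simp
  invFun X := Sum.elim ![X 0 0, X 0 1] ![X 1 1, - X 1 0]
  left_inv v := by
    funext i
    rcases i with i | i <;> fin_cases i <;> simp
  right_inv X := by
    ext i j; fin_cases i <;> fin_cases j <;> simp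

theorem m2Coord_det (v : Fin 2 ⊕ Fin 2 → F) : (m2Coord F v).det = Cfsg.quadFormPlus 2 F v := by
  show (!![v (Sum.inl 0), v (Sum.inl 1); - v (Sum.inr 1), v (Sum.inr 0)]).det = _
  rw [det_fin_two_of, Cfsg.quadFormPlus, Fin.sum_univ_two]
  ring

/-- the determinant-preserving maps embed in the orthogonal group. -/
theorem exists_detIso_hom (F : Type*) [Field F] :
    ∃ f : detIso F →* Cfsg.isometryGroup F (Cfsg.quadFormPlus 2 F), Function.Injective f := by
  refine exists_hom_iso_of_rep (m2Coord F) (fun X => X.det) _ m2Coord_det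
    ((LinearEquiv.automorphismGroup.toLinearMapMonoidHom).comp (detIso F).subtype) ?_ ?_
  · intro a b h
    apply detIso_ext
    intro X
    exact congrArg (fun T : Module.End F (Matrix (Fin 2) (Fin 2) F) => T X) h
  · intro g X
    exact g.2 X

end Cfsg.Agent.Lib.Helper12
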