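import Mathlib
import Cfsg.Agent.Lib.Helper12.A4Rec
import Cfsg.Agent.Lib.Helper12.PSL2Klein
import Cfsg.Agent.S0808
import Cfsg.Agent.Lib.Helper12.SL2Prod

set_option autoImplicit false

namespace Cfsg.Agent.Lib.Helper12

open Matrix
open scoped MatrixGroups
open Cfsg.Agent.Lib.Helper27.PSL2 (sq_eq_one sq_eq_neg_one_iff one_ne_neg_one ne_neg isConj_of_tr_zero
  isConj_of_orderOf_two tr orderOf_mk_eq_two_iff tr_zero_of_anticomm mk_eq_iff comm_mk_iff)

section odd
variable {F : Type*} [Field F] [Fintype F]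

/-- an explicit quaternion pair together with an element of order `3` (mod centre) permuting it. -/
theorem exists_QP_omega (p : ℕ) [Fact p.Prime] [CharP F p] (h2 : (2 : F) ≠ 0) :
    ∃ u v w : SL(2, F), QP u v ∧ w * u = v * w ∧ w * v = u * v * w ∧ w * w * w = -1 := by
  obtain ⟨a', b', hab'⟩ := CharP.sq_add_sq F p (-1)
  obtain ⟨a, ha⟩ : ∃ a : F, a = (a' : F) := ⟨_, rfl⟩
  obtain ⟨b, hb⟩ : ∃ b : F, b = (b' : F) := ⟨_, rfl⟩
  have hab : a ^ 2 + b ^ 2 = -1 := by
    rw [ha, hb, hab']; simp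
  have hi : (2 : F)⁻¹ * 2 = 1 := inv_mul_cancel₀ h2
  obtain ⟨u, hu⟩ : ∃ u : SL(2, F), (u : Matrix (Fin 2) (Fin 2) F) = !![0, -1; 1, 0] :=
    ⟨⟨!![0, -1; 1, 0], by rw [Matrix.det_fin_two_of]; ring⟩, rfl⟩
  obtain ⟨v, hv⟩ : ∃ v : SL(2, F), (v : Matrix (Fin 2) (Fin 2) F) = !![a, b; b, -a] :=
    ⟨⟨!![a, b; b, -a], by rw [Matrix.det_fin_two_of]; linear_combination -hab⟩, rfl⟩
  obtain ⟨w, hw⟩ : ∃ w : SL(2, F), (w : Matrix (Fin 2) (Fin 2) F) =
      !![2⁻¹ * (1 + a - b), 2⁻¹ * (-1 + a + b); 2⁻¹ * (1 + a + b), 2⁻¹ * (1 - a + b)] :=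
    ⟨⟨!![2⁻¹ * (1 + a - b), 2⁻¹ * (-1 + a + b); 2⁻¹ * (1 + a + b), 2⁻¹ * (1 - a + b)], by
      rw [Matrix.det_fin_two_of]
      linear_combination (-2 * (2 : F)⁻¹ ^ 2) * hab + (2 * (2 : F)⁻¹ + 1) * hi⟩, rfl⟩
  refine ⟨u, v, w, ⟨?_, ?_, ?_⟩, ?_, ?_, ?_⟩
  · apply Subtype.ext
    rw [Matrix.SpecialLinearGroup.coe_mul, Matrix.SpecialLinearGroup.coe_neg,
      Matrix.SpecialLinearGroup.coe_one, hu, Matrix.mul_fin_two]
    ext i j
    fin_cases i <;> fin_cases j <;> simp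
  · apply Subtype.ext
    rw [Matrix.SpecialLinearGroup.coe_mul, Matrix.SpecialLinearGroup.coe_neg,
      Matrix.SpecialLinearGroup.coe_one, hv, Matrix.mul_fin_two]
    ext i j
    fin_cases i <;> fin_cases j <;> simp
    · linear_combination hab
    · ring
    · ring
    · linear_combination hab
  · apply Subtype.ext
    rw [Matrix.SpecialLinearGroup.coe_mul, Matrix.SpecialLinearGroup.coe_neg,
      Matrix.SpecialLinearGroup.coe_mul, hu, hv, Matrix.mul_fin_two, Matrix.mul_fin_two]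
    ext i j
    fin_cases i <;> fin_cases j <;> simp
  · apply Subtype.ext
    rw [Matrix.SpecialLinearGroup.coe_mul, Matrix.SpecialLinearGroup.coe_mul, hu, hv, hw,
      Matrix.mul_fin_two, Matrix.mul_fin_two]
    ext i j
    fin_cases i <;> fin_cases j <;> simp
    · linear_combination (-(2 : F)⁻¹) * hab
    · linear_combination (-(2 : F)⁻¹) * hab
    · linear_combination ((2 : F)⁻¹) * hab
    · linear_combination (-(2 : F)⁻¹) * hab
  · apply Subtype.ext
    rw [Matrix.SpecialLinearGroup.coe_mul, Matrix.SpecialLinearGroup.coe_mul,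
      Matrix.SpecialLinearGroup.coe_mul, hu, hv, hw,
      Matrix.mul_fin_two, Matrix.mul_fin_two, Matrix.mul_fin_two]
    ext i j
    fin_cases i <;> fin_cases j <;> simp
    · ring
    · ring
    · ring
    · ring
  · have htr : (w : Matrix (Fin 2) (Fin 2) F).trace = 1 := by
      rw [hw, Matrix.trace_fin_two_of]
      linear_combination hi
    have hc := sl2_cayley w
    rw [htr, one_smul] at hc
    apply Subtype.ext
    rw [Matrix.SpecialLinearGroup.coe_mul, Matrix.SpecialLinearGroup.coe_mul, hc, sub_mul, hc,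
      Matrix.SpecialLinearGroup.coe_neg, Matrix.SpecialLinearGroup.coe_one, one_mul]
    abel

theorem exists_A4_odd (p : ℕ) [Fact p.Prime] [CharP F p] (h2 : (2 : F) ≠ 0) :
    ∃ H : Subgroup (SL(2, F) ⧸ Subgroup.center SL(2, F)),
      Nonempty (H ≃* alternatingGroup (Fin 4)) := by
  obtain ⟨u, v, w, h, hwu, hwv, hw3⟩ := exists_QP_omega (F := F) p h2
  have hq3 := h.ne h2
  have e1 := (orderOf_two_iff _).mp ((orderOf_mk_eq_two_iff h2 u).mpr h.1)
  have e2 := (orderOf_two_iff _).mp ((orderOf_mk_eq_two_iff h2 v).mpr h.2.1)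
  have e3 : QuotientGroup.mk' (Subgroup.center SL(2, F)) u *
      QuotientGroup.mk' (Subgroup.center SL(2, F)) v =
      QuotientGroup.mk' (Subgroup.center SL(2, F)) v *
      QuotientGroup.mk' (Subgroup.center SL(2, F)) u :=
    (comm_mk_iff u v).mpr (Or.inr (by rw [h.2.2, neg_neg]))
  set π := QuotientGroup.mk' (Subgroup.center SL(2, F)) with hπ
  set V := K4 (π u) (π v) e1.1 e2.1 e3 with hV
  have hVk : IsKleinFour V := isKleinFour_K4 _ _ e1.1 e2.1 e3 hq3.1 hq3.2.1 hq3.2.2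
  have huV : π u ∈ V := (mem_K4 _ _ e1.1 e2.1 e3 _).mpr (Or.inr (Or.inl rfl))
  have hvV : π v ∈ V := (mem_K4 _ _ e1.1 e2.1 e3 _).mpr (Or.inr (Or.inr (Or.inl rfl)))
  have c1 : π w * π u = π v * π w := by rw [← map_mul, ← map_mul, hwu]
  have c2 : π w * π v = π u * π v * π w := by rw [← map_mul, ← map_mul, ← map_mul, hwv]
  haveI : Finite (SL(2, F) ⧸ Subgroup.center SL(2, F)) := inferInstance
  apply exists_A4 V hVk (π w)
  · apply Cfsg.Agent.S0808.mem_normalizer_of_map_eq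
    apply klein_map_eq V V hVk hVk _ _ huV hvV hq3.1 hq3.2.1 hq3.2.2
    · rw [c1, mul_assoc, mul_inv_cancel, mul_one]; exact hvV
    · rw [c2, mul_assoc, mul_inv_cancel, mul_one]; exact V.mul_mem huV hvV
  · have : π w ^ 3 = 1 := by
      rw [← map_pow]
      have : w ^ 3 = w * w * w := by norm_num [pow_succ]
      rw [this, hw3, hπ, QuotientGroup.mk'_apply, QuotientGroup.eq_one_iff,
        Cfsg.Agent.Lib.Helper27.PSL2.mem_center_iff]
      right; rfl
    rw [this]; exact V.one_mem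
  · intro z hz hz1 hc
    rcases (mem_K4 (π u) (π v) e1.1 e2.1 e3 z).mp hz with rfl | rfl | rfl | rfl
    · exact hz1 rfl
    · rw [c1] at hc
      exact hq3.2.2 (mul_right_cancel hc).symm
    · rw [c2] at hc
      have := mul_right_cancel hc
      exact hq3.1 (mul_eq_right.mp this)
    · rw [← mul_assoc, c1, mul_assoc, c2, ← mul_assoc, ← mul_assoc] at hc
      have h5 := mul_right_cancel (mul_right_cancel hc)
      exact hq3.2.1 (mul_eq_right.mp h5)

end odd

section even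
variable {F : Type*} [Field F] [Fintype F] [CharP F 2]

theorem neg_eq_self_charTwo (y : SL(2, F)) : -y = y := by
  apply Subtype.ext
  rw [Matrix.SpecialLinearGroup.coe_neg]
  ext i j
  rw [Matrix.neg_apply]
  exact CharTwo.neg_eq _

theorem mk_injective_charTwo :
    Function.Injective (QuotientGroup.mk' (Subgroup.center SL(2, F))) := by
  intro x y h
  rcases (mk_eq_iff x y).mp h with e | e
  · exact e
  · rw [e, neg_eq_self_charTwo]

theorem tU_mul_tU (a b : F) : tU a * tU b = tU (a + b) := by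
  apply sl2_ext
  · rw [sl2_mul_00, tU_00, tU_00, tU_01, tU_10, tU_00]; ring
  · rw [sl2_mul_01, tU_00, tU_01, tU_01, tU_11, tU_01]; ring
  · rw [sl2_mul_10, tU_10, tU_00, tU_11, tU_10, tU_10]; ring
  · rw [sl2_mul_11, tU_10, tU_01, tU_11, tU_11, tU_11]; ring

theorem tU_zero' : tU (0 : F) = 1 := by
  apply sl2_ext
  · rw [tU_00]; rfl
  · rw [tU_01]; rfl
  · rw [tU_10]; rfl
  · rw [tU_11]; rfl

theorem dHom_mul_tU (t : Fˣ) (b : F) : dHom t * tU b = tU ((t : F) ^ 2 * b) * dHom t := by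
  have d00 : (dHom t : SL(2, F)) 0 0 = t := by
    show ((dHom t : SL(2, F)) : Matrix (Fin 2) (Fin 2) F) 0 0 = t
    rw [dHom_coe]; simp
  have d01 : (dHom t : SL(2, F)) 0 1 = 0 := by
    show ((dHom t : SL(2, F)) : Matrix (Fin 2) (Fin 2) F) 0 1 = 0
    rw [dHom_coe]; simp
  have d10 : (dHom t : SL(2, F)) 1 0 = 0 := by
    show ((dHom t : SL(2, F)) : Matrix (Fin 2) (Fin 2) F) 1 0 = 0
    rw [dHom_coe]; simp
  have d11 : (dHom t : SL(2, F)) 1 1 = ((t⁻¹ : Fˣ) : F) := by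
    show ((dHom t : SL(2, F)) : Matrix (Fin 2) (Fin 2) F) 1 1 = _
    rw [dHom_coe]; simp
  have ht : (t : F) * ((t⁻¹ : Fˣ) : F) = 1 := by simp
  apply sl2_ext
  · rw [sl2_mul_00, sl2_mul_00, d00, d01, d10, tU_00, tU_10, tU_00, tU_01]; ring
  · rw [sl2_mul_01, sl2_mul_01, d00, d01, d11, tU_01, tU_11, tU_00, tU_01]
    linear_combination (-(t : F) * b) * ht
  · rw [sl2_mul_10, sl2_mul_10, d10, d11, d00, tU_00, tU_10, tU_10, tU_11]; ring
  · rw [sl2_mul_11, sl2_mul_11, d10, d11, d01, tU_01, tU_11, tU_10, tU_11]; ring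

theorem exists_A4_even (h3 : 3 ∣ Fintype.card F - 1) :
    ∃ H : Subgroup (SL(2, F) ⧸ Subgroup.center SL(2, F)),
      Nonempty (H ≃* alternatingGroup (Fin 4)) := by
  haveI : Fact (Nat.Prime 3) := ⟨by norm_num⟩
  obtain ⟨ω, hω⟩ := exists_prime_orderOf_dvd_card' (G := Fˣ) 3 (by rw [card_units_eq]; exact h3)
  have hω3 : (ω : F) ^ 3 = 1 := by
    have : ω ^ 3 = 1 := by rw [← hω]; exact pow_orderOf_eq_one ω
    have := congrArg (fun z : Fˣ => (z : F)) this
    simpa using this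
  have hω1 : (ω : F) ≠ 1 := by
    intro h
    have : ω = 1 := Units.ext h
    rw [this, orderOf_one] at hω
    omega
  have hω0 : (ω : F) ≠ 0 := ω.ne_zero
  have hrel : (ω : F) ^ 2 + ω + 1 = 0 := by
    have : ((ω : F) - 1) * ((ω : F) ^ 2 + ω + 1) = 0 := by linear_combination hω3
    exact (mul_eq_zero.mp this).resolve_left (sub_ne_zero.mpr hω1)
  have h20 : (2 : F) = 0 := CharTwo.two_eq_zero
  have hω2 : (ω : F) ^ 2 = 1 + ω := by linear_combination hrel - (ω + 1 : F) * h20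
  have hsq : ∀ b : F, tU b * tU b = 1 := by
    intro b
    rw [tU_mul_tU, ← tU_zero']
    congr 1
    linear_combination b * h20
  have hinj : ∀ a b : F, tU a = tU b → a = b := by
    intro a b h
    have := congrArg (fun g : SL(2, F) => g 0 1) h
    simpa [tU_01] using this
  have hcm : tU (1 : F) * tU (ω : F) = tU (ω : F) * tU 1 := by
    rw [tU_mul_tU, tU_mul_tU, add_comm]
  have n1 : tU (1 : F) ≠ 1 := by
    rw [← tU_zero']; intro h; exact one_ne_zero (hinj _ _ h)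
  have n2 : tU (ω : F) ≠ 1 := by
    rw [← tU_zero']; intro h; exact hω0 (hinj _ _ h)
  have n3 : tU (1 : F) ≠ tU (ω : F) := fun h => hω1 (hinj _ _ h).symm
  set V := K4 (tU (1 : F)) (tU (ω : F)) (hsq 1) (hsq ω) hcm with hV
  have hVk : IsKleinFour V := isKleinFour_K4 _ _ _ _ _ n1 n2 n3
  have h1V : tU (1 : F) ∈ V := (mem_K4 _ _ (hsq 1) (hsq ω) hcm _).mpr (Or.inr (Or.inl rfl))
  have hωV : tU (ω : F) ∈ V := (mem_K4 _ _ (hsq 1) (hsq ω) hcm _).mpr (Or.inr (Or.inr (Or.inl rfl)))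
  obtain ⟨H, ⟨e⟩⟩ := exists_A4 V hVk (dHom ω) (by
      apply Cfsg.Agent.S0808.mem_normalizer_of_map_eq
      apply klein_map_eq V V hVk hVk _ _ h1V hωV n1 n2 n3
      · rw [dHom_mul_tU, mul_assoc, mul_inv_cancel, mul_one, mul_one, hω2, ← tU_mul_tU]
        exact V.mul_mem h1V hωV
      · rw [dHom_mul_tU, mul_assoc, mul_inv_cancel, mul_one]
        have : (ω : F) ^ 2 * ω = 1 := by linear_combination hω3
        rw [this]; exact h1V) (by
      rw [← map_pow]
      have : ω ^ 3 = 1 := by rw [← hω]; exact pow_orderOf_eq_one ω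
      rw [this, map_one]; exact V.one_mem) (by
      intro z hz hz1 hc
      have hzb : ∃ b : F, z = tU b := by
        rcases (mem_K4 _ _ (hsq 1) (hsq ω) hcm z).mp hz with rfl | rfl | rfl | rfl
        · exact ⟨0, tU_zero'.symm⟩
        · exact ⟨1, rfl⟩
        · exact ⟨ω, rfl⟩
        · exact ⟨1 + ω, tU_mul_tU _ _⟩
      obtain ⟨b, rfl⟩ := hzb
      have hb : b ≠ 0 := by
        rintro rfl
        exact hz1 tU_zero'
      rw [dHom_mul_tU] at hc
      have h5 := hinj _ _ (mul_right_cancel hc)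
      have h6 : (ω : F) ^ 2 = 1 := by
        have : ((ω : F) ^ 2 - 1) * b = 0 := by linear_combination h5
        exact sub_eq_zero.mp ((mul_eq_zero.mp this).resolve_right hb)
      apply hω1
      linear_combination hω3 - (ω : F) * h6)
  exact ⟨H.map (QuotientGroup.mk' (Subgroup.center SL(2, F))),
    ⟨(H.equivMapOfInjective _ mk_injective_charTwo).symm.trans e⟩⟩

theorem conj_eq_of_comm_charTwo (hq : Fintype.card F % 3 = 2) (A Γ : SL(2, F)) (hA1 : A ≠ 1)
    (hcomm : (Γ * A * Γ⁻¹) * A = A * (Γ * A * Γ⁻¹)) (hΓ : Γ * Γ * Γ = 1) :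
    Γ * A * Γ⁻¹ = A := by
  have hns : ¬ IsScal2 (A : Matrix (Fin 2) (Fin 2) F) := by
    intro hs
    rcases (Cfsg.Agent.Lib.Helper27.PSL2.mem_center_iff A).mp (mem_center_of_isScal2 A hs) with e | e
    · exact hA1 e
    · rw [neg_eq_self_charTwo] at e; exact hA1 e
  set MA := (A : Matrix (Fin 2) (Fin 2) F) with hMA
  set G := (Γ : Matrix (Fin 2) (Fin 2) F) with hG
  set G' := ((Γ⁻¹ : SL(2, F)) : Matrix (Fin 2) (Fin 2) F) with hG'
  have hGG : G * G' = 1 := by
    rw [hG, hG', ← Matrix.SpecialLinearGroup.coe_mul, mul_inv_cancel]; rfl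
  have hc : (G * MA * G') * MA = MA * (G * MA * G') :=
    congrArg (fun z : SL(2, F) => (z : Matrix (Fin 2) (Fin 2) F)) hcomm
  obtain ⟨x, y, hxy⟩ := exists_linComb_of_comm MA (G * MA * G') hns hc
  unfold linComb at hxy
  have hB2 : G * (x • 1 + y • MA) * G' = x • 1 + y • (x • 1 + y • MA) := by
    rw [mul_add, add_mul, Matrix.mul_smul, Matrix.smul_mul, mul_one, hGG, Matrix.mul_smul,
      Matrix.smul_mul, hxy]
  have hB3 : G * (x • 1 + y • (x • 1 + y • MA)) * G' =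
      x • 1 + y • (x • 1 + y • (x • 1 + y • MA)) := by
    rw [mul_add, add_mul, Matrix.mul_smul, Matrix.smul_mul, mul_one, hGG, Matrix.mul_smul,
      Matrix.smul_mul, hB2]
  have hcube : Γ * (Γ * (Γ * A * Γ⁻¹) * Γ⁻¹) * Γ⁻¹ = A := by
    calc Γ * (Γ * (Γ * A * Γ⁻¹) * Γ⁻¹) * Γ⁻¹ = (Γ * Γ * Γ) * A * (Γ * Γ * Γ)⁻¹ := by group
      _ = A := by rw [hΓ]; simp
  have hcube' : G * (G * (G * MA * G') * G') * G' = MA :=
    congrArg (fun z : SL(2, F) => (z : Matrix (Fin 2) (Fin 2) F)) hcube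
  rw [hxy, hB2, hB3] at hcube'
  have h5 : linComb MA (x + y * x + y ^ 2 * x) (y ^ 3) = linComb MA 0 1 := by
    unfold linComb
    rw [zero_smul, one_smul, zero_add]
    calc (x + y * x + y ^ 2 * x) • (1 : Matrix (Fin 2) (Fin 2) F) + y ^ 3 • MA
        = x • 1 + y • (x • 1 + y • (x • 1 + y • MA)) := by module
      _ = MA := hcube'
  obtain ⟨h6, h7⟩ := linComb_inj MA hns h5
  have hy0 : y ≠ 0 := by
    rintro rfl
    simp at h7
  have hy1 : y = 1 := by
    have h8 := FiniteField.pow_card_sub_one_eq_one y hy0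
    obtain ⟨m, hm⟩ : ∃ m, Fintype.card F - 1 = 3 * m + 1 := ⟨(Fintype.card F - 2) / 3, by omega⟩
    rw [hm, pow_succ, pow_mul, h7, one_pow, one_mul] at h8
    exact h8
  have h20 : (2 : F) = 0 := CharTwo.two_eq_zero
  have hx0 : x = 0 := by
    rw [hy1] at h6
    linear_combination h6 - x * h20
  apply Subtype.ext
  show G * MA * G' = MA
  rw [hxy, hx0, hy1, zero_smul, one_smul, zero_add]

end even

end Cfsg.Agent.Lib.Helper12
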