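import Mathlib
import Cfsg.Agent.Lib.Helper12.A4Rec
import Cfsg.Agent.S0808
import Cfsg.Agent.S1012

set_option autoImplicit false

namespace Cfsg.Agent.Lib.Helper12

section s4
variable {G : Type*} [Group G]

theorem exists_card_mul' [Finite G] (V : Subgroup G) (s : G) (r : ℕ) [Fact r.Prime]
    (hs : s ∈ Subgroup.normalizer (V : Set G)) (hsV : s ∉ V) (hsr : s ^ r ∈ V) :
    ∃ H : Subgroup G, V ≤ H ∧ s ∈ H ∧ (∀ x ∈ H, ∃ n : ℤ, ∃ y ∈ V, x = s ^ n * y) ∧
      Nat.card H = r * Nat.card V := by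
  set N := Subgroup.normalizer (V : Set G) with hN
  have hVN : V ≤ N := Subgroup.le_normalizer
  haveI : (V.subgroupOf N).Normal := Subgroup.normal_in_normalizer
  have h2 : orderOf (QuotientGroup.mk' (V.subgroupOf N) ⟨s, hs⟩) = r := by
    apply orderOf_eq_prime
    · rw [← map_pow, QuotientGroup.mk'_apply, QuotientGroup.eq_one_iff, Subgroup.mem_subgroupOf]
      exact hsr
    · rw [QuotientGroup.mk'_apply, ne_eq, QuotientGroup.eq_one_iff, Subgroup.mem_subgroupOf]
      exact hsV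
  set C := Subgroup.zpowers (QuotientGroup.mk' (V.subgroupOf N) ⟨s, hs⟩) with hC
  set H' := C.comap (QuotientGroup.mk' (V.subgroupOf N)) with hH'
  have hVH' : V.subgroupOf N ≤ H' := by
    intro x hx
    rw [hH', Subgroup.mem_comap]
    have : QuotientGroup.mk' (V.subgroupOf N) x = 1 := by
      rw [QuotientGroup.mk'_apply, QuotientGroup.eq_one_iff]; exact hx
    rw [this]; exact C.one_mem
  refine ⟨H'.map N.subtype, ?_, ?_, ?_, ?_⟩
  · intro x hx
    exact ⟨⟨x, hVN hx⟩, hVH' (Subgroup.mem_subgroupOf.mpr hx), rfl⟩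
  · exact ⟨⟨s, hs⟩, Subgroup.mem_comap.mpr (Subgroup.mem_zpowers _), rfl⟩
  · rintro _ ⟨x, hx, rfl⟩
    obtain ⟨n, hn⟩ := Subgroup.mem_zpowers_iff.mp (Subgroup.mem_comap.mp hx)
    rw [← map_zpow, QuotientGroup.mk'_apply, QuotientGroup.mk'_apply, QuotientGroup.eq,
      Subgroup.mem_subgroupOf] at hn
    refine ⟨n, _, hn, ?_⟩
    simp
  · rw [Subgroup.card_map_of_injective N.subtype_injective]
    have h3 := card_map_mk_mul (V.subgroupOf N) H' hVH'
    rw [hH', Subgroup.map_comap_eq_self_of_surjective (QuotientGroup.mk'_surjective _), hC,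
      Nat.card_zpowers, h2, Nat.card_congr (Subgroup.subgroupOfEquivOfLe hVN).toEquiv] at h3
    exact h3.symm

theorem mem_normalizer_of_conj_le [Finite G] (H : Subgroup G) (s : G)
    (h : ∀ x ∈ H, s * x * s⁻¹ ∈ H) : s ∈ Subgroup.normalizer (H : Set G) := by
  apply Cfsg.Agent.S0808.mem_normalizer_of_map_eq
  symm
  apply Subgroup.eq_of_le_of_card_ge
  · rintro _ ⟨x, hx, rfl⟩
    exact h x hx
  · rw [Subgroup.card_map_of_injective (MulAut.conj s).injective]

theorem klein_comm (V : Subgroup G) (hV : IsKleinFour V) (x y : G) (hx : x ∈ V) (hy : y ∈ V) :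
    x * y = y * x :=
  comm_of_sq x y (klein_sq V hV x hx) (klein_sq V hV y hy) (klein_sq V hV _ (V.mul_mem hx hy))

theorem sq_centralizes (V : Subgroup G) (hV : IsKleinFour V) (g : G)
    (hg : g ∈ Subgroup.normalizer (V : Set G)) (z : G) (hz : z ∈ V) (hz1 : z ≠ 1)
    (hgz : g * z = z * g) (y : G) (hy : y ∈ V) : (g * g) * y = y * (g * g) := by
  by_cases hy1 : y = 1
  · rw [hy1]; simp
  by_cases hyz : y = z
  · rw [hyz, mul_assoc, hgz, ← mul_assoc, hgz, mul_assoc]
  have hy' : g * y * g⁻¹ ∈ V := (Subgroup.mem_normalizer_iff.mp hg y).mp hy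
  rcases klein_mem V hV z y hz hy hz1 hy1 (fun h => hyz h.symm) _ hy' with h | h | h | h
  · exfalso
    apply hy1
    have : y = g⁻¹ * (g * y * g⁻¹) * g := by group
    rw [this, h]; group
  · exfalso
    apply hyz
    have e : y = g⁻¹ * (g * y * g⁻¹) * g := by group
    rw [e, h, mul_assoc, ← hgz]; group
  · have e : g * y = y * g := by
      calc g * y = (g * y * g⁻¹) * g := by group
        _ = y * g := by rw [h]
    rw [mul_assoc, e, ← mul_assoc, e, mul_assoc]
  · have e : g * y = z * y * g := by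
      calc g * y = (g * y * g⁻¹) * g := by group
        _ = z * y * g := by rw [h]
    calc g * g * y = g * (g * y) := by group
      _ = g * (z * y * g) := by rw [e]
      _ = (g * z) * y * g := by group
      _ = z * (g * y) * g := by rw [hgz]; group
      _ = (z * z) * y * (g * g) := by rw [e]; group
      _ = y * (g * g) := by rw [klein_sq V hV z hz, one_mul]

theorem no_order_six (V : Subgroup G) (hV : IsKleinFour V)
    (hC : ∀ x : G, (∀ y ∈ V, x * y = y * x) → x ∈ V) (g : G)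
    (hg : g ∈ Subgroup.normalizer (V : Set G)) : orderOf g ≠ 6 := by
  intro ho
  have L4 : ∀ h ∈ Subgroup.normalizer (V : Set G), ∀ z ∈ V, z ≠ 1 → h * z = z * h →
      h ^ 4 = 1 := by
    intro h hh z hz hz1 hhz
    have h1 := hC (h * h) (fun y hy => sq_centralizes V hV h hh z hz hz1 hhz y hy)
    have h2 := klein_sq V hV _ h1
    have : h ^ 4 = (h * h) * (h * h) := by norm_num [pow_succ, mul_assoc]
    rw [this, h2]
  have hg6 : g ^ 6 = 1 := by rw [← ho]; exact pow_orderOf_eq_one g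
  obtain ⟨t, ht⟩ : ∃ t, t = g ^ 3 := ⟨_, rfl⟩
  obtain ⟨c, hc⟩ : ∃ c, c = g ^ 2 := ⟨_, rfl⟩
  have htN : t ∈ Subgroup.normalizer (V : Set G) := by rw [ht]; exact Subgroup.pow_mem _ hg 3
  have hcN : c ∈ Subgroup.normalizer (V : Set G) := by rw [hc]; exact Subgroup.pow_mem _ hg 2
  have htt : t * t = 1 := by rw [ht, ← pow_add]; exact hg6
  have ht1 : t ≠ 1 := by
    rw [ht]; intro h
    have := orderOf_dvd_of_pow_eq_one h
    rw [ho] at this; omega
  have hc3 : c ^ 3 = 1 := by rw [hc, ← pow_mul]; exact hg6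
  have hc1 : c ≠ 1 := by
    rw [hc]; intro h
    have := orderOf_dvd_of_pow_eq_one h
    rw [ho] at this; omega
  have htc : t * c = c * t := by rw [ht, hc, ← pow_add, ← pow_add]
  have htg : g * t = t * g := by rw [ht, ← pow_succ, ← pow_succ']
  have hti : t⁻¹ = t := inv_eq_of_mul_eq_one_right htt
  obtain ⟨a, -, ha, -, ha1, -, -⟩ := klein_exists V hV
  have hz : ∃ z ∈ V, z ≠ 1 ∧ t * z = z * t := by
    have ha' : t * a * t⁻¹ ∈ V := (Subgroup.mem_normalizer_iff.mp htN a).mp ha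
    by_cases h : t * a * t⁻¹ = a
    · refine ⟨a, ha, ha1, ?_⟩
      calc t * a = (t * a * t⁻¹) * t := by group
        _ = a * t := by rw [h]
    · refine ⟨a * (t * a * t⁻¹), V.mul_mem ha ha', ?_, ?_⟩
      · intro h1
        apply h
        have h2 : t * a * t⁻¹ = a⁻¹ := eq_inv_of_mul_eq_one_right h1
        rw [h2]
        exact inv_eq_of_mul_eq_one_right (klein_sq V hV a ha)
      · rw [hti]
        have hcm := klein_comm V hV _ _ ha' ha
        rw [hti] at hcm
        calc t * (a * (t * a * t)) = ((t * a * t) * a) * t := by group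
          _ = a * (t * a * t) * t := by rw [hcm]
  obtain ⟨z, hzV, hz1, htz⟩ := hz
  have hz'V : c * z * c⁻¹ ∈ V := (Subgroup.mem_normalizer_iff.mp hcN z).mp hzV
  have hz'1 : c * z * c⁻¹ ≠ 1 := by
    intro h
    apply hz1
    have : z = c⁻¹ * (c * z * c⁻¹) * c := by group
    rw [this, h]; group
  have htci : t * c⁻¹ = c⁻¹ * t := by
    calc t * c⁻¹ = c⁻¹ * (c * t) * c⁻¹ := by group
      _ = c⁻¹ * (t * c) * c⁻¹ := by rw [htc]
      _ = c⁻¹ * t := by group
  have htz' : t * (c * z * c⁻¹) = (c * z * c⁻¹) * t := by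
    calc t * (c * z * c⁻¹) = (t * c) * z * c⁻¹ := by group
      _ = c * (t * z) * c⁻¹ := by rw [htc]; group
      _ = c * z * (t * c⁻¹) := by rw [htz]; group
      _ = (c * z * c⁻¹) * t := by rw [htci]; group
  have hne : z ≠ c * z * c⁻¹ := by
    intro h
    have h1 : c * z = z * c := by
      calc c * z = (c * z * c⁻¹) * c := by group
        _ = z * c := by rw [← h]
    have h4 := L4 c hcN z hzV hz1 h1
    apply hc1
    calc c = c ^ 4 * (c ^ 3)⁻¹ := by group
      _ = 1 := by rw [h4, hc3]; simp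
  have htV : t ∈ V := by
    apply hC
    intro y hy
    rcases klein_mem V hV z _ hzV hz'V hz1 hz'1 hne y hy with rfl | rfl | rfl | rfl
    · simp
    · exact htz
    · exact htz'
    · calc t * (z * (c * z * c⁻¹)) = (t * z) * (c * z * c⁻¹) := by group
        _ = z * (t * (c * z * c⁻¹)) := by rw [htz]; group
        _ = z * (c * z * c⁻¹) * t := by rw [htz']; group
  have h4 := L4 g hg t htV ht1 htg
  have := orderOf_dvd_of_pow_eq_one h4
  rw [ho] at this
  omega

theorem iso_S4 [Finite G] (V : Subgroup G) (hV : IsKleinFour V)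
    (hC : ∀ x : G, (∀ y ∈ V, x * y = y * x) → x ∈ V) (H : Subgroup G)
    (hHN : H ≤ Subgroup.normalizer (V : Set G)) (hcard : Nat.card H = 24) :
    Nonempty (H ≃* Equiv.Perm (Fin 4)) :=
  Cfsg.Agent.S1012.result hcard (fun g => by
    rw [← Subgroup.orderOf_coe]; exact no_order_six V hV hC g.1 (hHN g.2))

theorem exists_S4 [Finite G] (V : Subgroup G) (hV : IsKleinFour V)
    (hC : ∀ x : G, (∀ y ∈ V, x * y = y * x) → x ∈ V) (a b ω σ : G) (ha : a ∈ V) (hb : b ∈ V)
    (ha1 : a ≠ 1) (hb1 : b ≠ 1) (hab : a ≠ b)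
    (h1 : ω * a = b * ω) (h2 : ω * b = a * b * ω) (h3 : σ * a = a * σ) (h4 : σ * b = a * b * σ)
    (hω : ω ^ 3 ∈ V) (hσ : σ ^ 2 ∈ V) :
    ∃ H : Subgroup G, Nonempty (H ≃* Equiv.Perm (Fin 4)) := by
  haveI : Fact (Nat.Prime 3) := ⟨by norm_num⟩
  haveI : Fact (Nat.Prime 2) := ⟨by norm_num⟩
  have haa := klein_sq V hV a ha
  have hbb := klein_sq V hV b hb
  have hcm := klein_comm V hV a b ha hb
  have hωN : ω ∈ Subgroup.normalizer (V : Set G) := by
    apply Cfsg.Agent.S0808.mem_normalizer_of_map_eq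
    apply klein_map_eq V V hV hV a b ha hb ha1 hb1 hab
    · rw [h1, mul_assoc, mul_inv_cancel, mul_one]; exact hb
    · rw [h2, mul_assoc, mul_inv_cancel, mul_one]; exact V.mul_mem ha hb
  have hσN : σ ∈ Subgroup.normalizer (V : Set G) := by
    apply Cfsg.Agent.S0808.mem_normalizer_of_map_eq
    apply klein_map_eq V V hV hV a b ha hb ha1 hb1 hab
    · rw [h3, mul_assoc, mul_inv_cancel, mul_one]; exact ha
    · rw [h4, mul_assoc, mul_inv_cancel, mul_one]; exact V.mul_mem ha hb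
  have hωV : ω ∉ V := by
    intro h
    have := klein_comm V hV ω a h ha
    rw [h1] at this
    exact hab (mul_right_cancel this).symm
  have hσV : σ ∉ V := by
    intro h
    have := klein_comm V hV σ b h hb
    rw [h4] at this
    exact ha1 (mul_eq_right.mp (mul_right_cancel this))
  obtain ⟨H₁, hVH₁, hωH₁, hdesc₁, hcard₁⟩ := exists_card_mul' V ω 3 hωN hωV hω
  rw [hV.card_four] at hcard₁
  have hH₁N : H₁ ≤ Subgroup.normalizer (V : Set G) := by
    intro x hx
    obtain ⟨n, y, hy, rfl⟩ := hdesc₁ x hx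
    exact Subgroup.mul_mem _ (Subgroup.zpow_mem _ hωN n) (Subgroup.le_normalizer hy)
  -- `ω σ ω σ⁻¹` centralises `V`
  have hk : ω * σ * ω * σ⁻¹ ∈ V := by
    apply hC
    have s1 : σ⁻¹ * a = a * σ⁻¹ := by
      calc σ⁻¹ * a = σ⁻¹ * (a * σ) * σ⁻¹ := by group
        _ = σ⁻¹ * (σ * a) * σ⁻¹ := by rw [h3]
        _ = a * σ⁻¹ := by group
    have s2 : σ * (a * b) = b * σ := by
      rw [← mul_assoc, h3, mul_assoc, h4, ← mul_assoc, ← mul_assoc, haa, one_mul]
    have s3 : σ⁻¹ * b = a * b * σ⁻¹ := by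
      calc σ⁻¹ * b = σ⁻¹ * (b * σ) * σ⁻¹ := by group
        _ = σ⁻¹ * (σ * (a * b)) * σ⁻¹ := by rw [s2]
        _ = a * b * σ⁻¹ := by group
    have w3 : ω * (a * b) = a * ω := by
      rw [← mul_assoc, h1, mul_assoc, h2, ← mul_assoc, ← mul_assoc, ← hcm, mul_assoc a b b, hbb,
        mul_one]
    have ka : ω * σ * ω * σ⁻¹ * a = a * (ω * σ * ω * σ⁻¹) := by
      calc ω * σ * ω * σ⁻¹ * a = ω * σ * ω * (σ⁻¹ * a) := by group
        _ = ω * σ * (ω * a) * σ⁻¹ := by rw [s1]; group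
        _ = ω * (σ * b) * ω * σ⁻¹ := by rw [h1]; group
        _ = (ω * (a * b)) * σ * ω * σ⁻¹ := by rw [h4]; group
        _ = a * (ω * σ * ω * σ⁻¹) := by rw [w3]; group
    have kb : ω * σ * ω * σ⁻¹ * b = b * (ω * σ * ω * σ⁻¹) := by
      calc ω * σ * ω * σ⁻¹ * b = ω * σ * ω * (σ⁻¹ * b) := by group
        _ = ω * σ * (ω * (a * b)) * σ⁻¹ := by rw [s3]; group
        _ = ω * (σ * a) * ω * σ⁻¹ := by rw [w3]; group
        _ = (ω * a) * σ * ω * σ⁻¹ := by rw [h3]; group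
        _ = b * (ω * σ * ω * σ⁻¹) := by rw [h1]; group
    intro y hy
    rcases klein_mem V hV a b ha hb ha1 hb1 hab y hy with rfl | rfl | rfl | rfl
    · simp
    · exact ka
    · exact kb
    · calc ω * σ * ω * σ⁻¹ * (a * b) = (ω * σ * ω * σ⁻¹ * a) * b := by group
        _ = a * (ω * σ * ω * σ⁻¹ * b) := by rw [ka]; group
        _ = a * b * (ω * σ * ω * σ⁻¹) := by rw [kb]; group
  have hσω : σ * ω * σ⁻¹ ∈ H₁ := by
    have : σ * ω * σ⁻¹ = ω⁻¹ * (ω * σ * ω * σ⁻¹) := by group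
    rw [this]
    exact H₁.mul_mem (H₁.inv_mem hωH₁) (hVH₁ hk)
  have hσN₁ : σ ∈ Subgroup.normalizer (H₁ : Set G) := by
    apply mem_normalizer_of_conj_le
    intro x hx
    obtain ⟨n, y, hy, rfl⟩ := hdesc₁ x hx
    have e : σ * (ω ^ n * y) * σ⁻¹ = (σ * ω * σ⁻¹) ^ n * (σ * y * σ⁻¹) := by
      rw [conj_zpow]; group
    rw [e]
    exact H₁.mul_mem (H₁.zpow_mem hσω n) (hVH₁ ((Subgroup.mem_normalizer_iff.mp hσN y).mp hy))
  have hσH₁ : σ ∉ H₁ := by
    intro h
    haveI : (V.subgroupOf H₁).Normal := (Subgroup.normal_subgroupOf_iff_le_normalizer hVH₁).mpr hH₁N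
    have hidx : (V.subgroupOf H₁).index = 3 := by
      have h3 := Subgroup.card_mul_index (V.subgroupOf H₁)
      rw [Nat.card_congr (Subgroup.subgroupOfEquivOfLe hVH₁).toEquiv, hV.card_four, hcard₁] at h3
      omega
    have h5 := Subgroup.pow_index_mem (V.subgroupOf H₁) (⟨σ, h⟩ : H₁)
    rw [hidx, Subgroup.mem_subgroupOf] at h5
    have h6 : σ ^ 3 ∈ V := h5
    apply hσV
    have : σ = σ ^ 3 * (σ ^ 2)⁻¹ := by group
    rw [this]
    exact V.mul_mem h6 (V.inv_mem hσ)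
  obtain ⟨H₂, -, -, hdesc₂, hcard₂⟩ := exists_card_mul' H₁ σ 2 hσN₁ hσH₁ (hVH₁ hσ)
  rw [hcard₁] at hcard₂
  refine ⟨H₂, iso_S4 V hV hC H₂ ?_ hcard₂⟩
  intro x hx
  obtain ⟨n, y, hy, rfl⟩ := hdesc₂ x hx
  exact Subgroup.mul_mem _ (Subgroup.zpow_mem _ hσN n) (hH₁N hy)

end s4

end Cfsg.Agent.Lib.Helper12
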