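import Cfsg.Agent.Lib.Helper12.SpPerfect
import Cfsg.Agent.S0768

set_option autoImplicit false

namespace Cfsg.Agent.Lib.Helper12

open Matrix Cfsg Cfsg.Agent.Lib.Helper6 MulAction
open scoped LinearAlgebra.Projectivization Pointwise

variable {F : Type*} [Field F] (m : ℕ)

def toSpGLHom : symplecticGroup (Fin m) F →* spGL m F where
  toFun := toSpGL m
  map_one' := Subtype.ext (Units.ext rfl)
  map_mul' _ _ := Subtype.ext (Units.ext rfl)

def ofSpGL (g : spGL m F) : symplecticGroup (Fin m) F :=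
  ⟨((g : GL (Fin m ⊕ Fin m) F) : Matrix (Fin m ⊕ Fin m) (Fin m ⊕ Fin m) F),
    (mem_symplecticGroup_iff_sympForm _).mpr g.2⟩

theorem toSpGL_ofSpGL (g : spGL m F) : toSpGL m (ofSpGL m g) = g :=
  Subtype.ext (Units.ext rfl)

/-- the action of the symplectic group on projective space -/
@[reducible] def spAction : MulAction (symplecticGroup (Fin m) F) (ℙ F (Fin m ⊕ Fin m → F)) :=
  MulAction.compHom _ (toSpGLHom m)

attribute [local instance] spAction

theorem mulVec_ne_zero (A : symplecticGroup (Fin m) F) {v : Fin m ⊕ Fin m → F} (hv : v ≠ 0) :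
    (A : Matrix (Fin m ⊕ Fin m) (Fin m ⊕ Fin m) F) *ᵥ v ≠ 0 :=
  (smul_ne_zero_iff_ne (toSpGL m A)).mpr hv

theorem sp_smul_mk (A : symplecticGroup (Fin m) F) (v : Fin m ⊕ Fin m → F) (hv : v ≠ 0) :
    A • Projectivization.mk F v hv =
      Projectivization.mk F ((A : Matrix (Fin m ⊕ Fin m) (Fin m ⊕ Fin m) F) *ᵥ v)
        (mulVec_ne_zero m A hv) := rfl

theorem sp_isPreprimitive [Finite F] (hm : 1 ≤ m) :
    IsPreprimitive (symplecticGroup (Fin m) F) (ℙ F (Fin m ⊕ Fin m → F)) := by
  have := Cfsg.Agent.S0768.result (F := F) m hm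
  exact IsPreprimitive.of_surjective (φ := ofSpGL m)
    (f := { toFun := id
            map_smul' := by
              intro g p
              show g • p = toSpGL m (ofSpGL m g) • p
              rw [toSpGL_ofSpGL] }) Function.surjective_id

/-- the root group of a vector -/
def rootGrp (v : Fin m ⊕ Fin m → F) : Subgroup (symplecticGroup (Fin m) F) where
  carrier := {A | ∃ c, A = spT m v c}
  one_mem' := ⟨0, (spT_zero v).symm⟩
  mul_mem' := by
    rintro _ _ ⟨c, rfl⟩ ⟨d, rfl⟩
    exact ⟨c + d, (spT_add v c d).symm⟩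
  inv_mem' := by
    rintro _ ⟨c, rfl⟩
    exact ⟨-c, inv_eq_of_mul_eq_one_right (by rw [← spT_add, add_neg_cancel, spT_zero])⟩

theorem rootGrp_smul (a : F) (ha : a ≠ 0) (v : Fin m ⊕ Fin m → F) :
    rootGrp m (a • v) = rootGrp m v := by
  ext A
  constructor
  · rintro ⟨c, rfl⟩
    exact ⟨a ^ 2 * c, spT_smul a v c⟩
  · rintro ⟨c, rfl⟩
    refine ⟨c / a ^ 2, ?_⟩
    rw [spT_smul]
    congr 1
    field_simp

theorem rootGrp_conj (A : symplecticGroup (Fin m) F) (v : Fin m ⊕ Fin m → F) :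
    rootGrp m ((A : Matrix (Fin m ⊕ Fin m) (Fin m ⊕ Fin m) F) *ᵥ v) =
      MulAut.conj A • rootGrp m v := by
  ext B
  rw [Subgroup.mem_pointwise_smul_iff_inv_smul_mem]
  simp only [MulAut.smul_def, MulAut.inv_apply, MulAut.conj_symm_apply]
  constructor
  · rintro ⟨c, rfl⟩
    refine ⟨c, ?_⟩
    rw [← conj_spT]; group
  · rintro ⟨c, hc⟩
    refine ⟨c, ?_⟩
    rw [← conj_spT, ← hc]; group

/-- The Iwasawa structure on the symplectic group. -/
noncomputable def spIwasawa :
    IwasawaStructure (symplecticGroup (Fin m) F) (ℙ F (Fin m ⊕ Fin m → F)) where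
  T p := rootGrp m p.rep
  is_comm p := ⟨⟨by
    rintro ⟨_, c, rfl⟩ ⟨_, d, rfl⟩
    apply Subtype.ext
    show spT m p.rep c * spT m p.rep d = spT m p.rep d * spT m p.rep c
    rw [← spT_add, ← spT_add, add_comm]⟩⟩
  is_conj A p := by
    have h1 : A • p = Projectivization.mk F
        ((A : Matrix (Fin m ⊕ Fin m) (Fin m ⊕ Fin m) F) *ᵥ p.rep)
        (mulVec_ne_zero m A p.rep_nonzero) := by
      conv_lhs => rw [← Projectivization.mk_rep p]
      rfl
    obtain ⟨a, ha⟩ := Projectivization.exists_smul_eq_mk_rep F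
      ((A : Matrix (Fin m ⊕ Fin m) (Fin m ⊕ Fin m) F) *ᵥ p.rep) (mulVec_ne_zero m A p.rep_nonzero)
    rw [h1, ← ha, Units.smul_def, rootGrp_smul m _ a.ne_zero, rootGrp_conj]
  is_generator := by
    rw [eq_top_iff, ← Cfsg.Agent.S0765.result m, Subgroup.closure_le]
    rintro A ⟨w, c, hA⟩
    have hA' : A = spT m w c := Subtype.ext hA
    rw [hA', SetLike.mem_coe]
    by_cases hw : w = 0
    · rw [hw, spT_zero_vec]; exact one_mem _
    · obtain ⟨a, ha⟩ := Projectivization.exists_smul_eq_mk_rep F w hw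
      apply Subgroup.mem_iSup_of_mem (Projectivization.mk F w hw)
      show spT m w c ∈ rootGrp m (Projectivization.mk F w hw).rep
      rw [← ha, Units.smul_def, rootGrp_smul m _ a.ne_zero]
      exact ⟨c, rfl⟩

theorem mem_center_of_fix (A : symplecticGroup (Fin m) F)
    (h : ∀ p : ℙ F (Fin m ⊕ Fin m → F), A • p = p) :
    A ∈ Subgroup.center (symplecticGroup (Fin m) F) := by
  obtain ⟨a, ha⟩ := (Matrix.mulVecLin
      (A : Matrix (Fin m ⊕ Fin m) (Fin m ⊕ Fin m) F)).exists_eq_smul_id_of_forall_notLinearIndependent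
    (fun v => by
      by_cases hv : v = 0
      · simp [hv, linearIndependent_fin2]
      · have := h (Projectivization.mk F v hv)
        rw [sp_smul_mk, Projectivization.mk_eq_mk_iff'] at this
        obtain ⟨b, hb⟩ := this
        simp only [LinearIndependent.pair_iff' hv, Matrix.mulVecLin_apply, not_forall, not_not]
        exact ⟨b, hb⟩)
  have hA : ∀ x, (A : Matrix (Fin m ⊕ Fin m) (Fin m ⊕ Fin m) F) *ᵥ x = a • x := by
    intro x
    have := congrArg (fun f => f x) ha
    simpa using this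
  rw [Subgroup.mem_center_iff]
  intro B
  apply sp_ext
  intro x
  rw [sp_mul_mulVec, sp_mul_mulVec, hA, hA, mulVec_smul]

theorem sp_nontrivial (hm : 1 ≤ m) : Nontrivial (symplecticGroup (Fin m) F) := by
  refine ⟨spT m (Pi.single (Sum.inl ⟨0, hm⟩) 1) 1, 1, ?_⟩
  intro h
  have h1 := congrArg (fun A : symplecticGroup (Fin m) F =>
    ((A : Matrix (Fin m ⊕ Fin m) (Fin m ⊕ Fin m) F) *ᵥ (Pi.single (Sum.inr ⟨0, hm⟩) 1))
      (Sum.inl ⟨0, hm⟩)) h
  simp only [spT_mulVec, sympForm_single_inl] at h1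
  simp at h1

theorem psp_isSimpleGroup [Finite F] (hm : 1 ≤ m)
    (hperf : commutator (symplecticGroup (Fin m) F) = ⊤) :
    IsSimpleGroup (symplecticGroup (Fin m) F ⧸ Subgroup.center (symplecticGroup (Fin m) F)) := by
  have hprim := sp_isPreprimitive (F := F) m hm
  have hnt := sp_nontrivial (F := F) m hm
  have hcne : Subgroup.center (symplecticGroup (Fin m) F) ≠ ⊤ := by
    intro h
    have h2 : ⁅(⊤ : Subgroup (symplecticGroup (Fin m) F)), ⊤⁆ = ⊥ :=
      Subgroup.commutator_top_right_eq_bot_iff_le_center.mpr (h ▸ le_rfl)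
    rw [← commutator_def, hperf] at h2
    exact top_ne_bot h2
  have : Nontrivial (symplecticGroup (Fin m) F ⧸ Subgroup.center (symplecticGroup (Fin m) F)) :=
    QuotientGroup.nontrivial_iff.mpr hcne
  refine ⟨fun N hN => ?_⟩
  set N' := N.comap (QuotientGroup.mk' (Subgroup.center (symplecticGroup (Fin m) F))) with hN'
  have hN'n : N'.Normal := hN.comap _
  by_cases hfix : MulAction.fixedPoints N' (ℙ F (Fin m ⊕ Fin m → F)) = Set.univ
  · left
    rw [eq_bot_iff]
    intro x hx
    obtain ⟨y, rfl⟩ := QuotientGroup.mk_surjective x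
    have hy : y ∈ N' := hx
    rw [Subgroup.mem_bot, QuotientGroup.eq_one_iff]
    apply mem_center_of_fix
    intro p
    have hp : p ∈ MulAction.fixedPoints N' (ℙ F (Fin m ⊕ Fin m → F)) := hfix ▸ Set.mem_univ p
    exact hp ⟨y, hy⟩
  · right
    have hle := (spIwasawa (F := F) m).commutator_le N' hfix
    rw [hperf, top_le_iff] at hle
    rw [eq_top_iff]
    intro x _
    obtain ⟨y, rfl⟩ := QuotientGroup.mk_surjective x
    have hy : y ∈ N' := hle ▸ Subgroup.mem_top y
    exact hy

end Cfsg.Agent.Lib.Helper12
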