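import Mathlib
import Cfsg.Prelude.Def_ClassicalGeometry
import Cfsg.Agent.Lib.Helper6.SympMore
import Cfsg.Agent.Lib.Helper12.SpCard

set_option autoImplicit false

namespace Cfsg.Agent.Lib.Helper12

open Matrix Cfsg Cfsg.Agent.Lib.Helper6

variable {F : Type*} [Field F]

theorem exists_vecMulVec_of_rank_one' {ι : Type*} [Fintype ι] [DecidableEq ι] (M : Matrix ι ι F)
    (h : M.rank = 1) : ∃ u φ : ι → F, M = Matrix.vecMulVec u φ := by
  have h1 : Module.finrank F (LinearMap.range M.mulVecLin) = 1 := h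
  obtain ⟨⟨u, hu⟩, hu0, hspan⟩ := finrank_eq_one_iff'.mp h1
  choose c hc using fun j : ι =>
    hspan ⟨M.mulVecLin (Pi.single j 1), LinearMap.mem_range_self _ _⟩
  refine ⟨u, c, ?_⟩
  ext i j
  have := congrArg (fun x : LinearMap.range M.mulVecLin => (x : ι → F) i) (hc j)
  simp at this
  simp [Matrix.vecMulVec_apply, ← this, mul_comm]

/-- a symplectic matrix `t` with `t - 1` of rank one is a symplectic transvection. -/
theorem exists_transvection_of_rank_one {m : ℕ} (t : symplecticGroup (Fin m) F)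
    (ht : ((t : Matrix (Fin m ⊕ Fin m) (Fin m ⊕ Fin m) F) - 1).rank = 1) :
    ∃ (a : Fin m ⊕ Fin m → F) (c : F), a ≠ 0 ∧ c ≠ 0 ∧
      ∀ x, (t : Matrix (Fin m ⊕ Fin m) (Fin m ⊕ Fin m) F) *ᵥ x = x + (c * sympForm m F x a) • a := by
  obtain ⟨a, b, hab⟩ := exists_vecMulVec_of_rank_one' _ ht
  have hne : Matrix.vecMulVec a b ≠ 0 := by
    intro h0
    rw [hab, h0, Matrix.rank_zero] at ht
    exact zero_ne_one ht
  have ha : a ≠ 0 := by
    rintro rfl
    exact hne (by ext i j; simp [vecMulVec_apply])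
  have htx : ∀ x, (t : Matrix (Fin m ⊕ Fin m) (Fin m ⊕ Fin m) F) *ᵥ x = x + (b ⬝ᵥ x) • a := by
    intro x
    have : (t : Matrix (Fin m ⊕ Fin m) (Fin m ⊕ Fin m) F) = 1 + Matrix.vecMulVec a b := by
      rw [← hab]; abel
    rw [this, add_mulVec, one_mulVec, vecMulVec_mulVec]
    ext i
    simp [mul_comm]
  have hsym : ∀ x y, (b ⬝ᵥ y) * sympForm m F x a = (b ⬝ᵥ x) * sympForm m F y a := by
    intro x y
    have h := sympForm_mulVec m t x y
    rw [htx, htx, sympForm_add_left, sympForm_add_right, sympForm_add_right, sympForm_smul_left,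
      sympForm_smul_left, sympForm_smul_right, sympForm_smul_right, sympForm_self,
      sympForm_swap a y] at h
    linear_combination h
  obtain ⟨y0, hy0⟩ := exists_sympForm_eq_one m a ha
  have hy0' : sympForm m F y0 a = -1 := by rw [sympForm_swap, hy0]
  have hb : ∀ x, b ⬝ᵥ x = (-(b ⬝ᵥ y0)) * sympForm m F x a := by
    intro x
    have := hsym x y0
    rw [hy0'] at this
    linear_combination this
  refine ⟨a, -(b ⬝ᵥ y0), ha, ?_, fun x => by rw [htx, hb]⟩
  intro h0
  apply hne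
  have hb0 : b = 0 := by
    ext i
    have := hb (Pi.single i 1)
    rw [h0, zero_mul] at this
    simpa using this
  ext i j
  simp [vecMulVec_apply, hb0]

/-- the action of `Sp` on nonzero vectors. -/
@[reducible] noncomputable def spActionV (m : ℕ) :
    MulAction (symplecticGroup (Fin m) F) {v : Fin m ⊕ Fin m → F // v ≠ 0} where
  smul g v := ⟨(g : Matrix (Fin m ⊕ Fin m) (Fin m ⊕ Fin m) F) *ᵥ v.1, by
    intro h0
    apply v.2
    apply sympForm_nondeg_left
    intro z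
    rw [← sympForm_mulVec m g, h0, sympForm_zero_left]⟩
  one_smul v := by
    apply Subtype.ext
    change (1 : Matrix (Fin m ⊕ Fin m) (Fin m ⊕ Fin m) F) *ᵥ v.1 = v.1
    simp
  mul_smul g h v := by
    apply Subtype.ext
    change ((g : Matrix (Fin m ⊕ Fin m) (Fin m ⊕ Fin m) F)
        * (h : Matrix (Fin m ⊕ Fin m) (Fin m ⊕ Fin m) F)) *ᵥ v.1
      = (g : Matrix (Fin m ⊕ Fin m) (Fin m ⊕ Fin m) F) *ᵥ
          ((h : Matrix (Fin m ⊕ Fin m) (Fin m ⊕ Fin m) F) *ᵥ v.1)
    rw [Matrix.mulVec_mulVec]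

/-- the subgroup of `Sp` fixing the vector `v`. -/
def spFix (m : ℕ) (v : Fin m ⊕ Fin m → F) : Subgroup (symplecticGroup (Fin m) F) where
  carrier := {g | (g : Matrix (Fin m ⊕ Fin m) (Fin m ⊕ Fin m) F) *ᵥ v = v}
  mul_mem' {a b} ha hb := by
    change ((a : Matrix (Fin m ⊕ Fin m) (Fin m ⊕ Fin m) F)
        * (b : Matrix (Fin m ⊕ Fin m) (Fin m ⊕ Fin m) F)) *ᵥ v = v
    rw [← Matrix.mulVec_mulVec, hb, ha]
  one_mem' := by
    change (1 : Matrix (Fin m ⊕ Fin m) (Fin m ⊕ Fin m) F) *ᵥ v = v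
    simp
  inv_mem' {a} ha := by
    have h1 : ((a⁻¹ * a : symplecticGroup (Fin m) F) :
        Matrix (Fin m ⊕ Fin m) (Fin m ⊕ Fin m) F) *ᵥ v = v := by
      rw [inv_mul_cancel]
      change (1 : Matrix (Fin m ⊕ Fin m) (Fin m ⊕ Fin m) F) *ᵥ v = v
      simp
    rw [Submonoid.coe_mul, ← Matrix.mulVec_mulVec, ha] at h1
    exact h1

set_option synthInstance.maxHeartbeats 400000 in
theorem card_spFix [Fintype F] (m : ℕ) (v : Fin m ⊕ Fin m → F) (hv : v ≠ 0) :
    (Fintype.card F ^ (2 * m) - 1) * Nat.card (spFix m v)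
      = Nat.card (symplecticGroup (Fin m) F) := by
  classical
  let _ := spActionV (F := F) m
  have hsmul : ∀ (g : symplecticGroup (Fin m) F) (p : {v : Fin m ⊕ Fin m → F // v ≠ 0}),
      (g • p).1 = (g : Matrix (Fin m ⊕ Fin m) (Fin m ⊕ Fin m) F) *ᵥ p.1 :=
    fun _ _ => rfl
  have h1 := (MulAction.stabilizer (symplecticGroup (Fin m) F)
    (⟨v, hv⟩ : {v : Fin m ⊕ Fin m → F // v ≠ 0})).card_mul_index
  rw [MulAction.index_stabilizer] at h1
  have horb : MulAction.orbit (symplecticGroup (Fin m) F)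
      (⟨v, hv⟩ : {v : Fin m ⊕ Fin m → F // v ≠ 0}) = Set.univ := by
    ext p
    simp only [Set.mem_univ, iff_true]
    obtain ⟨y, hy⟩ := exists_sympForm_eq_one m v hv
    obtain ⟨y', hy'⟩ := exists_sympForm_eq_one m p.1 p.2
    obtain ⟨g, -, hg⟩ := sympTv_trans_vec m ⊤ v y p.1 y' trivial trivial trivial trivial
      (by rw [hy]; exact one_ne_zero) (by rw [hy']; exact one_ne_zero)
    exact ⟨g, Subtype.ext hg⟩
  have hstab : MulAction.stabilizer (symplecticGroup (Fin m) F)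
      (⟨v, hv⟩ : {v : Fin m ⊕ Fin m → F // v ≠ 0}) = spFix m v := by
    ext g
    rw [MulAction.mem_stabilizer_iff]
    constructor
    · intro h
      exact congrArg Subtype.val h
    · intro h
      exact Subtype.ext h
  rw [hstab, horb, Set.ncard_univ] at h1
  rw [← h1, mul_comm]
  congr 1
  rw [Nat.card_eq_fintype_card, Fintype.card_subtype_compl, Fintype.card_fun, Fintype.card_sum,
    Fintype.card_fin, two_mul]
  simp

end Cfsg.Agent.Lib.Helper12
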