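import Mathlib

set_option autoImplicit false

namespace Cfsg.Agent.Lib.Helper12

open Matrix

theorem card_pairs_lt (n : ℕ) : Nat.card {p : Fin n × Fin n // p.2 < p.1} = n * (n - 1) / 2 := by
  rw [Nat.card_congr (Equiv.subtypeProdEquivSigmaSubtype (fun a b : Fin n => b < a)),
    Nat.card_sigma]
  have h : ∀ i : Fin n, Nat.card {j : Fin n // j < i} = i := by
    intro i
    rw [Nat.card_eq_fintype_card, Fintype.card_subtype, ← Fin.card_Iio i]; congr 1; ext; simp
  simp only [h]
  rw [Fin.sum_univ_eq_sum_range (fun i => i), Finset.sum_range_id]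

theorem card_pairs_le (n : ℕ) : Nat.card {p : Fin n × Fin n // p.2 ≤ p.1} = n * (n + 1) / 2 := by
  rw [Nat.card_congr (Equiv.subtypeProdEquivSigmaSubtype (fun a b : Fin n => b ≤ a)),
    Nat.card_sigma]
  have h : ∀ i : Fin n, Nat.card {j : Fin n // j ≤ i} = i + 1 := by
    intro i
    rw [Nat.card_eq_fintype_card, Fintype.card_subtype, ← Fin.card_Iic i]; congr 1; ext; simp
  simp only [h]
  rw [Fin.sum_univ_eq_sum_range (fun i => i + 1)]
  have h1 := Finset.sum_range_id (n + 1)
  rw [Finset.sum_range_succ' (fun i => i)] at h1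
  simp only [add_zero, Nat.add_sub_cancel] at h1
  rw [h1, mul_comm]

variable {F : Type*} [Field F]

theorem card_lowerTri [Fintype F] {q : ℕ} (hF : Fintype.card F = q) (n : ℕ) :
    Nat.card {g : GL (Fin n) F // ∀ i j : Fin n, i < j → (g : Matrix (Fin n) (Fin n) F) i j = 0}
      = q ^ (n * (n - 1) / 2) * (q - 1) ^ n := by
  classical
  have hne : ∀ g : {g : GL (Fin n) F // ∀ i j : Fin n, i < j →
      (g : Matrix (Fin n) (Fin n) F) i j = 0}, ∀ i, (g.1 : Matrix (Fin n) (Fin n) F) i i ≠ 0 := by
    intro g i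
    have h1 : (g.1 : Matrix (Fin n) (Fin n) F).det = ∏ i, (g.1 : Matrix (Fin n) (Fin n) F) i i :=
      Matrix.det_of_isLowerTriangular _ (fun i j hij => g.2 i j hij)
    have h2 : (g.1 : Matrix (Fin n) (Fin n) F).det ≠ 0 :=
      ((Matrix.isUnit_iff_isUnit_det _).1 g.1.isUnit).ne_zero
    rw [h1, Finset.prod_ne_zero_iff] at h2
    exact h2 i (Finset.mem_univ i)
  let Φ : {g : GL (Fin n) F // ∀ i j : Fin n, i < j → (g : Matrix (Fin n) (Fin n) F) i j = 0} →
      (Fin n → Fˣ) × ({p : Fin n × Fin n // p.2 < p.1} → F) := fun g =>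
    (fun i => Units.mk0 _ (hne g i), fun p => (g.1 : Matrix (Fin n) (Fin n) F) p.1.1 p.1.2)
  have hbij : Function.Bijective Φ := by
    constructor
    · intro g g' h
      apply Subtype.ext
      apply Units.ext
      ext i j
      rcases lt_trichotomy i j with hij | hij | hij
      · rw [g.2 i j hij, g'.2 i j hij]
      · subst hij
        have := congrArg (fun z => ((z.1 i : Fˣ) : F)) h
        exact this
      · have := congrArg (fun z => z.2 ⟨(i, j), hij⟩) h
        exact this
    · rintro ⟨d, c⟩
      let M : Matrix (Fin n) (Fin n) F := Matrix.of fun i j =>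
        if h : j < i then c ⟨(i, j), h⟩ else if i = j then (d i : F) else 0
      have hM0 : ∀ i j : Fin n, i < j → M i j = 0 := by
        intro i j hij
        simp [M, not_lt.2 hij.le, hij.ne]
      have hMd : ∀ i, M i i = d i := by
        intro i; simp [M]
      have hdet : M.det ≠ 0 := by
        rw [Matrix.det_of_isLowerTriangular _ (fun i j hij => hM0 i j hij),
          Finset.prod_ne_zero_iff]
        intro i _
        rw [hMd]
        exact (d i).ne_zero
      refine ⟨⟨Matrix.GeneralLinearGroup.mkOfDetNeZero M hdet, hM0⟩, ?_⟩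
      apply Prod.ext
      · funext i
        apply Units.ext
        exact hMd i
      · funext p
        show M p.1.1 p.1.2 = c p
        simp [M, p.2]
  rw [Nat.card_congr (Equiv.ofBijective Φ hbij), Nat.card_prod, Nat.card_fun, Nat.card_fun,
    card_pairs_lt, Nat.card_eq_fintype_card, Nat.card_eq_fintype_card, Nat.card_eq_fintype_card,
    Fintype.card_units, hF, Fintype.card_fin, mul_comm]

/-- transposition on `GL`. -/
def glTr {n : ℕ} (g : GL (Fin n) F) : GL (Fin n) F :=
  ⟨(g : Matrix (Fin n) (Fin n) F)ᵀ, ((g⁻¹ : GL (Fin n) F) : Matrix (Fin n) (Fin n) F)ᵀ,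
    by rw [← transpose_mul, ← Units.val_mul, inv_mul_cancel, Units.val_one, transpose_one],
    by rw [← transpose_mul, ← Units.val_mul, mul_inv_cancel, Units.val_one, transpose_one]⟩

theorem glTr_glTr {n : ℕ} (g : GL (Fin n) F) : glTr (glTr g) = g := by
  apply Units.ext
  show ((g : Matrix (Fin n) (Fin n) F)ᵀ)ᵀ = g
  rw [transpose_transpose]

theorem card_upperTri [Fintype F] {q : ℕ} (hF : Fintype.card F = q) (n : ℕ) :
    Nat.card {g : GL (Fin n) F // ∀ i j : Fin n, j < i → (g : Matrix (Fin n) (Fin n) F) i j = 0}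
      = q ^ (n * (n - 1) / 2) * (q - 1) ^ n := by
  rw [← card_lowerTri hF n]
  refine Nat.card_congr ⟨fun g => ⟨glTr g.1, fun i j hij => g.2 j i hij⟩,
    fun g => ⟨glTr g.1, fun i j hij => g.2 j i hij⟩, fun g => Subtype.ext (glTr_glTr _),
    fun g => Subtype.ext (glTr_glTr _)⟩

theorem card_symmMat [Fintype F] {q : ℕ} (hF : Fintype.card F = q) (n : ℕ) :
    Nat.card {S : Matrix (Fin n) (Fin n) F // Sᵀ = S} = q ^ (n * (n + 1) / 2) := by
  classical
  let Φ : {S : Matrix (Fin n) (Fin n) F // Sᵀ = S} → ({p : Fin n × Fin n // p.2 ≤ p.1} → F) :=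
    fun S p => S.1 p.1.1 p.1.2
  have hbij : Function.Bijective Φ := by
    constructor
    · intro S S' h
      apply Subtype.ext
      ext i j
      rcases le_total j i with hij | hij
      · exact congrFun h ⟨(i, j), hij⟩
      · have h1 := congrFun h ⟨(j, i), hij⟩
        have h2 : S.1 i j = S.1 j i := by
          conv_lhs => rw [← S.2]
          rfl
        have h3 : S'.1 i j = S'.1 j i := by
          conv_lhs => rw [← S'.2]
          rfl
        rw [h2, h3]
        exact h1
    · intro c
      let M : Matrix (Fin n) (Fin n) F := Matrix.of fun i j =>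
        if h : j ≤ i then c ⟨(i, j), h⟩ else c ⟨(j, i), (not_le.1 h).le⟩
      refine ⟨⟨M, ?_⟩, ?_⟩
      · ext i j
        show M j i = M i j
        rcases lt_trichotomy i j with hij | hij | hij
        · simp [M, hij.le, not_le.2 hij]
        · subst hij; rfl
        · simp [M, hij.le, not_le.2 hij]
      · funext p
        show M p.1.1 p.1.2 = c p
        simp [M, p.2]
  rw [Nat.card_congr (Equiv.ofBijective Φ hbij), Nat.card_fun, card_pairs_le,
    Nat.card_eq_fintype_card, hF]

end Cfsg.Agent.Lib.Helper12
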