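import Mathlib
import Cfsg.Prelude.Def_LieClassical
import Cfsg.Agent.Lib.Helper6.Herm
import Cfsg.Agent.Lib.Helper12.Unitary
import Cfsg.Agent.Lib.Helper12.FixField

set_option autoImplicit false

namespace Cfsg.Agent.Lib.Helper12

open Matrix Cfsg Cfsg.Agent.Lib.Helper6

section general
variable {F : Type*} [Field F] [Fintype F] {q : ℕ}

theorem HPres_iff_entry (hF : Fintype.card F = q ^ 2) {n : ℕ} (M : Matrix (Fin n) (Fin n) F) :
    HPres q n M ↔ ∀ i j, ∑ k, M k i * (M k j) ^ q = if i = j then 1 else 0 := by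
  have hq := herm_q_pos hF
  constructor
  · intro h i j
    have h2 := h (Pi.single i 1) (Pi.single j 1)
    rw [herm_single_right q n (by omega)] at h2
    simp only [Matrix.mulVec_single_one] at h2
    rw [Pi.single_apply] at h2
    simp only [eq_comm (a := i) (b := j)]
    rw [← h2]
    rfl
  · intro hG u v
    simp only [hermForm, Matrix.mulVec, dotProduct]
    simp_rw [frob_sum hF, mul_pow, Finset.sum_mul_sum]
    rw [Finset.sum_comm]
    refine Finset.sum_congr rfl fun i _ => ?_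
    rw [Finset.sum_comm]
    have : ∀ j, ∑ k, M k i * u i * (M k j ^ q * v j ^ q) =
        u i * v j ^ q * (if i = j then 1 else 0) := by
      intro j
      rw [← hG i j, Finset.mul_sum]
      refine Finset.sum_congr rfl fun k _ => by ring
    simp_rw [this]
    simp

theorem card_normOne (hF : Fintype.card F = q ^ 2) :
    Nat.card (powMonoidHom (q + 1) : Fˣ →* Fˣ).ker = q + 1 := by
  classical
  have h1 : Nat.card (powMonoidHom (q + 1) : Fˣ →* Fˣ).ker = Nat.gcd (Nat.card Fˣ) (q + 1) :=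
    IsCyclic.card_powMonoidHom_ker ..
  rw [h1, Nat.card_eq_fintype_card (α := Fˣ), Fintype.card_units, hF]
  have hq := herm_q_pos hF
  have : q ^ 2 - 1 = (q - 1) * (q + 1) := by
    obtain ⟨k, rfl⟩ : ∃ k, q = k + 1 := ⟨q - 1, by omega⟩
    simp only [Nat.add_sub_cancel]
    have : (k + 1) ^ 2 = k * (k + 1 + 1) + 1 := by ring
    omega
  rw [this]
  exact Nat.gcd_eq_right (Dvd.intro_left _ rfl)

end general

section ker
variable {F : Type*} [Field F]

theorem semiHom_scalar (σ : F ≃+* F) (n : ℕ) (u : (fixSub σ)ˣ) :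
    semiHom σ n (Units.map (fixSub σ).subtype.toMonoidHom u⁻¹,
      GeneralLinearGroup.scalar (Fin n) u) = 1 := by
  apply Units.ext
  rw [semiHom_val]
  ext i j
  have hu : ((u : fixSub σ) : F) ≠ 0 := by
    intro h
    exact u.ne_zero (Subtype.ext h)
  by_cases hij : i = j
  · subst hij
    simp [GeneralLinearGroup.coe_scalar, hu]
  · simp [GeneralLinearGroup.coe_scalar, hij]

theorem exists_of_mem_ker_semiHom (σ : F ≃+* F) {n : ℕ} (hn : 1 ≤ n)
    (p : Fˣ × GL (Fin n) (fixSub σ)) (hk : semiHom σ n p = 1) :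
    ∃ u : (fixSub σ)ˣ, p = (Units.map (fixSub σ).subtype.toMonoidHom u⁻¹,
      GeneralLinearGroup.scalar (Fin n) u) := by
  obtain ⟨a, h⟩ := p
  have hk' := congrArg (fun x : GL (Fin n) F => (x : Matrix (Fin n) (Fin n) F)) hk
  simp only [semiHom_val, Units.val_one] at hk'
  have hent : ∀ i j, (a : F) * ((h : Matrix (Fin n) (Fin n) (fixSub σ)) i j : F) =
      (1 : Matrix (Fin n) (Fin n) F) i j := by
    intro i j
    have := congrFun (congrFun hk' i) j
    simpa using this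
  have h00 := hent ⟨0, hn⟩ ⟨0, hn⟩
  rw [Matrix.one_apply_eq] at h00
  set u0 : fixSub σ := (h : Matrix (Fin n) (Fin n) (fixSub σ)) ⟨0, hn⟩ ⟨0, hn⟩ with hu0
  have hu0ne : u0 ≠ 0 := by
    intro h0
    rw [h0] at h00
    simp at h00
  refine ⟨Units.mk0 u0 hu0ne, ?_⟩
  apply Prod.ext
  · apply Units.ext
    simp only [Units.coe_map, RingHom.toMonoidHom_eq_coe, MonoidHom.coe_coe,
      Subfield.coe_subtype]
    have h5 : (((Units.mk0 u0 hu0ne)⁻¹ : (fixSub σ)ˣ) : fixSub σ) = u0⁻¹ := by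
      simp
    rw [h5]
    have hu0F : (u0 : F) ≠ 0 := fun h => hu0ne (Subtype.ext h)
    push_cast
    field_simp
    exact h00
  · apply Units.ext
    ext i j
    have h6 := hent i j
    have ha : (a : F) ≠ 0 := a.ne_zero
    by_cases hij : i = j
    · subst hij
      rw [Matrix.one_apply_eq, ← h00] at h6
      have h7 := mul_left_cancel₀ ha h6
      simp [GeneralLinearGroup.coe_scalar, h7]
    · rw [Matrix.one_apply_ne hij] at h6
      have h7 : ((h : Matrix (Fin n) (Fin n) (fixSub σ)) i j : F) = 0 := by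
        rcases mul_eq_zero.mp h6 with h | h
        · exact absurd h ha
        · exact h
      simp [GeneralLinearGroup.coe_scalar, hij, h7]

end ker

section main
variable {K : Type*} [Field K] [Fintype K] {q₀ q r : ℕ}

theorem card_fixSub_sq (hr : r ≠ 0) (hq : q = q₀ ^ r) (hK : Fintype.card K = q ^ 2)
    (σ : K ≃+* K) (hσ : orderOf σ = r) : Nat.card (fixSub σ) = q₀ ^ 2 := by
  apply card_fixSub σ hr hσ
  rw [Nat.card_eq_fintype_card, hK, hq, ← pow_mul, ← pow_mul, mul_comm]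

theorem pow_q_eq_of_fix (hr : Odd r) (hq : q = q₀ ^ r)
    (σ : K ≃+* K) (h0 : Nat.card (fixSub σ) = q₀ ^ 2) (x : fixSub σ) :
    (x : K) ^ q = (x : K) ^ q₀ := by
  obtain ⟨m, rfl⟩ := hr
  haveI : Fintype (fixSub σ) := Fintype.ofFinite _
  have h1 : x ^ (q₀ ^ 2) = x := by
    rw [← h0, Nat.card_eq_fintype_card, FiniteField.pow_card]
  have h2 : ∀ m : ℕ, x ^ (q₀ ^ (2 * m)) = x := by
    intro m
    induction m with
    | zero => simp
    | succ m ih => rw [Nat.mul_succ, pow_add, pow_mul, ih, h1]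
  have h3 : x ^ q = x ^ q₀ := by
    rw [hq, pow_succ, pow_mul, h2]
  exact_mod_cast congrArg (fun y : fixSub σ => (y : K)) h3

/-- the Gram condition for `a • h` with `h` over the fixed field. -/
theorem HPres_smul_map_iff (hr : Odd r) (hq : q = q₀ ^ r) (hK : Fintype.card K = q ^ 2)
    (σ : K ≃+* K) (h0 : Nat.card (fixSub σ) = q₀ ^ 2) {n : ℕ} (a : K)
    (h : Matrix (Fin n) (Fin n) (fixSub σ)) :
    HPres q n (a • h.map (fixSub σ).subtype) ↔
      ∀ i j, a ^ (q + 1) * ((∑ k, h k i * (h k j) ^ q₀ : fixSub σ) : K) = if i = j then 1 else 0 := by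
  rw [HPres_iff_entry hK]
  refine forall_congr' fun i => forall_congr' fun j => ?_
  have : ∑ k, (a • h.map (fixSub σ).subtype) k i * ((a • h.map (fixSub σ).subtype) k j) ^ q =
      a ^ (q + 1) * ((∑ k, h k i * (h k j) ^ q₀ : fixSub σ) : K) := by
    push_cast
    rw [Finset.mul_sum]
    refine Finset.sum_congr rfl fun k _ => ?_
    simp only [Matrix.smul_apply, Matrix.map_apply, Subfield.coe_subtype, smul_eq_mul, mul_pow]
    rw [pow_q_eq_of_fix hr hq σ h0]
    ring
  rw [this]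

theorem HPres_fix_iff (σ : K ≃+* K) (h0 : Nat.card (fixSub σ) = q₀ ^ 2) {n : ℕ}
    (h : Matrix (Fin n) (Fin n) (fixSub σ)) :
    HPres q₀ n h ↔ ∀ i j, ∑ k, h k i * (h k j) ^ q₀ = if i = j then 1 else 0 := by
  haveI : Fintype (fixSub σ) := Fintype.ofFinite _
  exact HPres_iff_entry (by rw [← Nat.card_eq_fintype_card, h0]) h

/-- the homomorphism `μ_{q+1} × GU_n(q₀) → GL_n(K)`. -/
noncomputable def guSemiHom (σ : K ≃+* K) (n q q₀ : ℕ) :
    (powMonoidHom (q + 1) : Kˣ →* Kˣ).ker × GU n (fixSub σ) q₀ →* GL (Fin n) K :=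
  (semiHom σ n).comp (MonoidHom.prodMap (Subgroup.subtype _) (Subgroup.subtype _))

theorem mem_range_guSemiHom (hr : Odd r) (hq : q = q₀ ^ r) (hK : Fintype.card K = q ^ 2)
    (σ : K ≃+* K) (h0 : Nat.card (fixSub σ) = q₀ ^ 2) {n : ℕ} (hn : 1 ≤ n) (g : GL (Fin n) K) :
    g ∈ (guSemiHom σ n q q₀).range ↔ g ∈ GU n K q ∧
      ∃ c : K, c ≠ 0 ∧ (g : Matrix (Fin n) (Fin n) K).map σ = c • (g : Matrix (Fin n) (Fin n) K) := by
  haveI : Fintype (fixSub σ) := Fintype.ofFinite _
  have h0' : Fintype.card (fixSub σ) = q₀ ^ 2 := by rw [← Nat.card_eq_fintype_card, h0]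
  constructor
  · rintro ⟨⟨a, h⟩, rfl⟩
    refine ⟨?_, (mem_range_semiHom σ hn _).mp ⟨(a.1, h.1), rfl⟩⟩
    rw [mem_GU_iff]
    show HPres q n (semiHom σ n (a.1, h.1) : Matrix (Fin n) (Fin n) K)
    rw [semiHom_val, HPres_smul_map_iff hr hq hK σ h0]
    intro i j
    have h1 := (HPres_fix_iff σ h0 _).mp ((mem_GU_iff h.1).mp h.2) i j
    have h2 : ((a.1 : Kˣ) : K) ^ (q + 1) = 1 := by
      have := congrArg Units.val (MonoidHom.mem_ker.mp a.2)
      simpa using this
    simp only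
    rw [h1, h2, one_mul]
    split_ifs <;> simp
  · rintro ⟨hgu, hc⟩
    obtain ⟨⟨a, h⟩, rfl⟩ := (mem_range_semiHom σ hn g).mpr hc
    rw [mem_GU_iff, semiHom_val, HPres_smul_map_iff hr hq hK σ h0] at hgu
    simp only at hgu
    set T : Fin n → Fin n → fixSub σ := fun i j =>
      ∑ k, (h : Matrix (Fin n) (Fin n) (fixSub σ)) k i *
        ((h : Matrix (Fin n) (Fin n) (fixSub σ)) k j) ^ q₀ with hT
    have h00 := hgu ⟨0, hn⟩ ⟨0, hn⟩
    rw [if_pos rfl] at h00
    change (a : K) ^ (q + 1) * (T ⟨0, hn⟩ ⟨0, hn⟩ : K) = 1 at h00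
    set t0 := T ⟨0, hn⟩ ⟨0, hn⟩ with ht0
    have ht0ne : t0 ≠ 0 := by
      intro hz
      rw [hz] at h00
      simp at h00
    have ht0K : (t0 : K) ≠ 0 := fun hz => ht0ne (Subtype.ext hz)
    have hlam : (a : K) ^ (q + 1) = ((t0⁻¹ : fixSub σ) : K) := by
      push_cast
      field_simp
      exact h00
    have hfix : (t0⁻¹) ^ q₀ = t0⁻¹ := by
      apply Subtype.ext
      push_cast
      have h3 := norm_fixed hK (a : K)
      rw [hlam, pow_q_eq_of_fix hr hq σ h0] at h3
      push_cast at h3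
      exact h3
    obtain ⟨b, hb⟩ := exists_norm_eq h0' (t0⁻¹) hfix
    have hbne : b ≠ 0 := by
      rintro rfl
      rw [zero_pow (Nat.succ_ne_zero _)] at hb
      exact inv_ne_zero ht0ne hb.symm
    set u : (fixSub σ)ˣ := Units.mk0 b hbne with hu
    have hmul : semiHom σ n (a, h) = semiHom σ n
        (a * Units.map (fixSub σ).subtype.toMonoidHom u⁻¹,
          h * GeneralLinearGroup.scalar (Fin n) u) := by
      have : ((a * Units.map (fixSub σ).subtype.toMonoidHom u⁻¹,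
          h * GeneralLinearGroup.scalar (Fin n) u) : Kˣ × GL (Fin n) (fixSub σ)) =
          (a, h) * (Units.map (fixSub σ).subtype.toMonoidHom u⁻¹,
            GeneralLinearGroup.scalar (Fin n) u) := rfl
      rw [this, map_mul, semiHom_scalar, mul_one]
    rw [hmul]
    refine ⟨(⟨a * Units.map (fixSub σ).subtype.toMonoidHom u⁻¹, ?_⟩,
      ⟨h * GeneralLinearGroup.scalar (Fin n) u, ?_⟩), rfl⟩
    · rw [MonoidHom.mem_ker]
      apply Units.ext
      have hbK : (b : K) ≠ 0 := fun hz => hbne (Subtype.ext hz)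
      have h5 : ((u⁻¹ : (fixSub σ)ˣ) : fixSub σ) = b⁻¹ := by simp [hu]
      have h6 : (b : K) ^ (q + 1) = ((t0⁻¹ : fixSub σ) : K) := by
        rw [pow_succ, pow_q_eq_of_fix hr hq σ h0, ← pow_succ, ← hb]
        push_cast
        rfl
      simp only [powMonoidHom_apply, Units.val_pow_eq_pow_val, Units.val_mul, Units.coe_map,
        RingHom.toMonoidHom_eq_coe, MonoidHom.coe_coe, Subfield.coe_subtype, Units.val_one, h5]
      push_cast
      rw [mul_pow, inv_pow, h6, hlam]
      apply mul_inv_cancel₀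
      push_cast
      exact inv_ne_zero ht0K
    · rw [mem_GU_iff, HPres_fix_iff σ h0]
      intro i j
      have h7 : ∀ k l, ((h * GeneralLinearGroup.scalar (Fin n) u : GL (Fin n) (fixSub σ)) :
          Matrix (Fin n) (Fin n) (fixSub σ)) k l =
          (h : Matrix (Fin n) (Fin n) (fixSub σ)) k l * b := by
        intro k l
        simp [GeneralLinearGroup.coe_scalar, hu]
      simp only [h7]
      have h8 : ∑ k, (h : Matrix (Fin n) (Fin n) (fixSub σ)) k i * b *
          ((h : Matrix (Fin n) (Fin n) (fixSub σ)) k j * b) ^ q₀ = t0⁻¹ * T i j := by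
        rw [← hb, hT, Finset.mul_sum]
        refine Finset.sum_congr rfl fun k _ => by ring
      rw [h8]
      apply Subtype.ext
      have h9 : (a : K) ^ (q + 1) * (T i j : K) = if i = j then 1 else 0 := hgu i j
      rw [hlam] at h9
      rw [Subfield.coe_mul, h9]
      split_ifs <;> simp

theorem card_ker_guSemiHom (hr : Odd r) (hq : q = q₀ ^ r)
    (σ : K ≃+* K) (h0 : Nat.card (fixSub σ) = q₀ ^ 2) {n : ℕ} (hn : 1 ≤ n) :
    Nat.card (guSemiHom σ n q q₀).ker = q₀ + 1 := by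
  haveI : Fintype (fixSub σ) := Fintype.ofFinite _
  have h0' : Fintype.card (fixSub σ) = q₀ ^ 2 := by rw [← Nat.card_eq_fintype_card, h0]
  rw [← card_normOne h0']
  symm
  have key : ∀ u : (fixSub σ)ˣ, u ^ (q₀ + 1) = 1 ↔
      (Units.map (fixSub σ).subtype.toMonoidHom u⁻¹) ^ (q + 1) = 1 := by
    intro u
    have h1 : ((Units.map (fixSub σ).subtype.toMonoidHom u⁻¹ : Kˣ) : K) ^ (q + 1) =
        (((u⁻¹ : (fixSub σ)ˣ) ^ (q₀ + 1) : (fixSub σ)ˣ) : fixSub σ) := by
      simp only [Units.coe_map, RingHom.toMonoidHom_eq_coe, MonoidHom.coe_coe,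
        Subfield.coe_subtype]
      rw [pow_succ, pow_q_eq_of_fix hr hq σ h0, ← pow_succ]
      push_cast
      rfl
    constructor
    · intro hu
      apply Units.ext
      rw [Units.val_pow_eq_pow_val, h1, inv_pow, hu]
      simp
    · intro hu
      have h2 := congrArg Units.val hu
      rw [Units.val_pow_eq_pow_val, h1] at h2
      have h3 : (u⁻¹) ^ (q₀ + 1) = 1 := by
        apply Units.ext
        apply Subtype.ext
        rw [h2]
        simp
      rw [inv_pow, inv_eq_one] at h3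
      exact h3
  refine Nat.card_congr (Equiv.ofBijective
    (fun u : (powMonoidHom (q₀ + 1) : (fixSub σ)ˣ →* (fixSub σ)ˣ).ker =>
    (⟨(⟨Units.map (fixSub σ).subtype.toMonoidHom u.1⁻¹, ?_⟩,
      ⟨GeneralLinearGroup.scalar (Fin n) u.1, ?_⟩), ?_⟩ : (guSemiHom σ n q q₀).ker)) ⟨?_, ?_⟩)
  · rw [MonoidHom.mem_ker]
    exact (key u.1).mp (MonoidHom.mem_ker.mp u.2)
  · rw [mem_GU_iff]
    have h1 : ((u.1 : (fixSub σ)ˣ) : fixSub σ) ^ (q₀ + 1) = 1 := by
      have := congrArg Units.val (MonoidHom.mem_ker.mp u.2)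
      simpa using this
    have h2 := scalar_pres h0' n _ h1
    convert h2 using 1
    ext i j
    simp [GeneralLinearGroup.coe_scalar, Matrix.one_apply, Matrix.diagonal_apply]
  · rw [MonoidHom.mem_ker]
    exact semiHom_scalar σ n u.1
  · intro u v huv
    have h1 := congrArg (fun x : (guSemiHom σ n q q₀).ker => (((x.1.1 : _) : Kˣ) : K)) huv
    simp only [Units.coe_map, RingHom.toMonoidHom_eq_coe, MonoidHom.coe_coe,
      Subfield.coe_subtype] at h1
    have h2 : u.1⁻¹ = v.1⁻¹ := Units.ext (Subtype.ext h1)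
    exact Subtype.ext (inv_injective h2)
  · rintro ⟨⟨a, h⟩, hk⟩
    rw [MonoidHom.mem_ker] at hk
    obtain ⟨u, hu⟩ := exists_of_mem_ker_semiHom σ hn (a.1, h.1) hk
    have hu1 : a.1 = Units.map (fixSub σ).subtype.toMonoidHom u⁻¹ := congrArg Prod.fst hu
    have hu2 : h.1 = GeneralLinearGroup.scalar (Fin n) u := congrArg Prod.snd hu
    refine ⟨⟨u, ?_⟩, ?_⟩
    · rw [MonoidHom.mem_ker]
      apply (key u).mpr
      rw [← hu1]
      exact MonoidHom.mem_ker.mp a.2
    · apply Subtype.ext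
      apply Prod.ext
      · exact Subtype.ext hu1.symm
      · exact Subtype.ext hu2.symm

theorem card_gu_semi (hr : Odd r) (hq : q = q₀ ^ r) (hK : Fintype.card K = q ^ 2)
    (σ : K ≃+* K) (hσ : orderOf σ = r) {n : ℕ} (hn : 1 ≤ n) :
    Nat.card {g : ↥(Cfsg.GU n K q) // ∃ c : K, c ≠ 0 ∧
      ((g : GL (Fin n) K) : Matrix (Fin n) (Fin n) K).map σ =
        c • ((g : GL (Fin n) K) : Matrix (Fin n) (Fin n) K)} * (q₀ + 1) =
      (q + 1) * Nat.card (GU n (fixSub σ) q₀) := by
  have h0 := card_fixSub_sq hr.pos.ne' hq hK σ hσ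
  have h1 := card_eq_range_mul_ker (guSemiHom σ n q q₀)
  rw [card_ker_guSemiHom hr hq σ h0 hn, Nat.card_prod, card_normOne hK] at h1
  rw [h1]
  congr 1
  apply Nat.card_congr
  refine ⟨fun g => ⟨g.1.1, (mem_range_guSemiHom hr hq hK σ h0 hn _).mpr ⟨g.1.2, g.2⟩⟩,
    fun g => ⟨⟨g.1, ((mem_range_guSemiHom hr hq hK σ h0 hn _).mp g.2).1⟩,
      ((mem_range_guSemiHom hr hq hK σ h0 hn _).mp g.2).2⟩, fun g => rfl, fun g => rfl⟩

end main

end Cfsg.Agent.Lib.Helper12
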