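import Mathlib
import Cfsg.Prelude.Def_LieClassical
import Cfsg.Agent.Lib.Helper6.Herm
import Cfsg.Agent.Lib.Helper12.UnitarySU

set_option autoImplicit false

namespace Cfsg.Agent.Lib.Helper12

open Matrix Cfsg Cfsg.Agent.Lib.Helper6

variable {F : Type*} [Field F]

section
variable [Fintype F] {q : ℕ} (hF : Fintype.card F = q ^ 2)
include hF

theorem scalar_of_commute_SU (n : ℕ) (Z : Matrix (Fin n) (Fin n) F)
    (hcomm : ∀ M : Matrix (Fin n) (Fin n) F, M.det = 1 → HPres q n M → M * Z = Z * M) :
    ∃ l : F, Z = l • (1 : Matrix (Fin n) (Fin n) F) := by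
  classical
  obtain ⟨l, hl, hl2⟩ := exists_norm_one_sq_ne_one hF
  have hl0 : l ≠ 0 := by
    rintro rfl
    rw [zero_pow (Nat.succ_ne_zero q)] at hl
    exact zero_ne_one hl
  have hoff : ∀ i j, i ≠ j → Z i j = 0 := by
    intro i j hij
    have hd1 : (diagonal (Function.update (1 : Fin n → F) i l)).det = l := by
      rw [det_diagonal, Finset.prod_update_of_mem (Finset.mem_univ _)]; simp
    have hd2 : (diagonal (Function.update (1 : Fin n → F) j l⁻¹)).det = l⁻¹ := by
      rw [det_diagonal, Finset.prod_update_of_mem (Finset.mem_univ _)]; simp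
    have hp1 : HPres q n (diagonal (Function.update (1 : Fin n → F) i l)) :=
      diagonal_pres _ (by
        intro k
        by_cases hk : k = i
        · rw [hk, Function.update_self, hl]
        · rw [Function.update_of_ne hk]; simp)
    have hp2 : HPres q n (diagonal (Function.update (1 : Fin n → F) j l⁻¹)) :=
      diagonal_pres _ (by
        intro k
        by_cases hk : k = j
        · rw [hk, Function.update_self, inv_pow, hl, inv_one]
        · rw [Function.update_of_ne hk]; simp)
    have h := hcomm _ (by rw [det_mul, hd1, hd2, mul_inv_cancel₀ hl0]) (hp1.mul hp2)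
    rw [diagonal_mul_diagonal] at h
    have h2 := congrFun (congrFun h i) j
    rw [diagonal_mul, mul_diagonal] at h2
    simp only [Function.update_self, Function.update_of_ne hij, Function.update_of_ne hij.symm,
      Pi.one_apply, mul_one, one_mul] at h2
    by_contra hne
    apply hl2
    have h3 : l = l⁻¹ := by
      have : l * Z i j = l⁻¹ * Z i j := by rw [h2, mul_comm]
      exact mul_right_cancel₀ hne this
    rw [pow_two]
    nth_rewrite 2 [h3]
    exact mul_inv_cancel₀ hl0
  have hZd : Z = diagonal (fun k => Z k k) := by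
    ext a b
    by_cases hab : a = b
    · subst hab; simp
    · rw [diagonal_apply_ne _ hab, hoff a b hab]
  have hdiag : ∀ i j, i ≠ j → Z i i = Z j j := by
    intro i j hij
    have hd1 : (diagonal (Function.update (1 : Fin n → F) i (-1))).det = -1 := by
      rw [det_diagonal, Finset.prod_update_of_mem (Finset.mem_univ _)]; simp
    have hp1 : HPres q n (diagonal (Function.update (1 : Fin n → F) i (-1))) :=
      diagonal_pres _ (by
        intro k
        by_cases hk : k = i
        · rw [hk, Function.update_self, neg_one_norm hF]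
        · rw [Function.update_of_ne hk]; simp)
    have h := hcomm _ (by
      rw [det_mul, hd1, det_permutation, Equiv.Perm.sign_swap hij]; simp)
      ((perm_pres (q := q) (Equiv.swap i j)).mul hp1)
    have h2 := congrFun (congrFun h i) j
    rw [hZd, mul_diagonal, diagonal_mul, mul_diagonal] at h2
    simp only [Function.update_of_ne hij.symm, Pi.one_apply, mul_one, PEquiv.toMatrix_apply,
      Equiv.toPEquiv_apply, Equiv.swap_apply_left, Option.mem_def, if_true, one_mul] at h2
    exact h2.symm
  rcases isEmpty_or_nonempty (Fin n) with hE | ⟨⟨i0⟩⟩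
  · exact ⟨0, by ext i; exact hE.elim i⟩
  · refine ⟨Z i0 i0, ?_⟩
    ext a b
    by_cases hab : a = b
    · subst hab
      by_cases ha : a = i0
      · subst ha; simp
      · rw [hdiag a i0 ha]; simp
    · rw [hoff a b hab]; simp [hab]


theorem mem_center_GU_iff (n : ℕ) (hn : 1 ≤ n) (z : GU n F q) :
    z ∈ Subgroup.center (GU n F q) ↔ ∃ l : F, l ^ (q + 1) = 1 ∧
      ((z : GL (Fin n) F) : Matrix (Fin n) (Fin n) F) = l • (1 : Matrix (Fin n) (Fin n) F) := by
  have hq := herm_q_pos hF
  have hq0 : q ≠ 0 := by omega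
  constructor
  · intro hz
    obtain ⟨l, hl⟩ := scalar_of_commute_SU hF n ((z : GL (Fin n) F) : Matrix (Fin n) (Fin n) F) (by
      intro M _ hM
      obtain ⟨A, hA⟩ := exists_GU_of_HPres hq0 hM
      have := Subgroup.mem_center_iff.mp hz A
      have h2 : ((A : GL (Fin n) F) : Matrix (Fin n) (Fin n) F)
          * ((z : GL (Fin n) F) : Matrix (Fin n) (Fin n) F)
          = ((z : GL (Fin n) F) : Matrix (Fin n) (Fin n) F)
            * ((A : GL (Fin n) F) : Matrix (Fin n) (Fin n) F) :=
        congrArg (fun x : GU n F q => ((x : GL (Fin n) F) : Matrix (Fin n) (Fin n) F)) this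
      rw [hA] at h2
      exact h2)
    refine ⟨l, ?_, hl⟩
    have := z.2 (Pi.single ⟨0, hn⟩ 1) (Pi.single ⟨0, hn⟩ 1)
    change hermForm n F q (((z : GL (Fin n) F) : Matrix (Fin n) (Fin n) F) *ᵥ _)
      (((z : GL (Fin n) F) : Matrix (Fin n) (Fin n) F) *ᵥ _) = _ at this
    rw [hl, smul_mulVec, one_mulVec, herm_smul_left, herm_smul_right,
      herm_single_right q n hq0] at this
    simp only [Pi.single_eq_same, mul_one] at this
    rw [pow_succ']
    exact this
  · rintro ⟨l, -, hl⟩
    rw [Subgroup.mem_center_iff]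
    intro B
    apply Subtype.ext
    apply Units.ext
    change ((B : GL (Fin n) F) : Matrix (Fin n) (Fin n) F)
        * ((z : GL (Fin n) F) : Matrix (Fin n) (Fin n) F)
      = ((z : GL (Fin n) F) : Matrix (Fin n) (Fin n) F)
        * ((B : GL (Fin n) F) : Matrix (Fin n) (Fin n) F)
    rw [hl]
    simp

end

/-- in a finite cyclic group of order `a * c`, an element killed by `a` is a `c`-th power. -/
theorem exists_pow_eq_of_pow_eq_one {C : Type*} [Group C] [Finite C] [IsCyclic C] (a c : ℕ)
    (ha : 0 < a) (hM : Nat.card C = a * c) (x : C) (hx : x ^ a = 1) : ∃ y : C, y ^ c = x := by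
  obtain ⟨g, hg⟩ := IsCyclic.exists_generator (α := C)
  obtain ⟨k, hk⟩ := Subgroup.mem_zpowers_iff.mp (hg x)
  have hord : orderOf g = a * c := by
    rw [orderOf_eq_card_of_forall_mem_zpowers hg, hM]
  rw [← hk, ← zpow_natCast, ← _root_.zpow_mul] at hx
  have h2 := (orderOf_dvd_iff_zpow_eq_one).mpr hx
  rw [hord] at h2
  have h3 : ((a * c : ℕ) : ℤ) = (c : ℤ) * (a : ℤ) := by push_cast; ring
  rw [h3] at h2
  have h4 : (a : ℤ) ≠ 0 := by exact_mod_cast ha.ne'
  obtain ⟨m, hm⟩ := (mul_dvd_mul_iff_right h4).mp h2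
  refine ⟨g ^ m, ?_⟩
  rw [← hk, hm, ← zpow_natCast, ← _root_.zpow_mul]
  congr 1
  ring

end Cfsg.Agent.Lib.Helper12
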