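import Mathlib
import Cfsg.Agent.Lib.Helper6.UGen
import Cfsg.Agent.Lib.Helper12.UnitaryCount

set_option autoImplicit false

namespace Cfsg.Agent.Lib.Helper12

open Matrix Cfsg Cfsg.Agent.Lib.Helper6

variable {F : Type*} [Field F]

theorem herm_sum_left {κ : Type*} (q n : ℕ) (s : Finset κ) (g : κ → Fin n → F) (w : Fin n → F) :
    hermForm n F q (∑ i ∈ s, g i) w = ∑ i ∈ s, hermForm n F q (g i) w := by
  classical
  induction s using Finset.induction_on with
  | empty => simp [hermForm]
  | insert a s ha ih => rw [Finset.sum_insert ha, Finset.sum_insert ha, herm_add_left, ih]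

/-- `x ↦ h(x, v)` as a linear functional. -/
def hermL (q n : ℕ) (v : Fin n → F) : (Fin n → F) →ₗ[F] F where
  toFun x := hermForm n F q x v
  map_add' x y := herm_add_left q n x y v
  map_smul' c x := herm_smul_left q n c x v

theorem hermL_apply (q n : ℕ) (v x : Fin n → F) : hermL q n v x = hermForm n F q x v := rfl

variable [Fintype F] {q : ℕ} (hF : Fintype.card F = q ^ 2)
include hF

theorem herm_zero_right (n : ℕ) (u : Fin n → F) : hermForm n F q u 0 = 0 := by
  have hq := herm_q_pos hF
  simp [hermForm, zero_pow (by omega : q ≠ 0)]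

theorem herm_sum_right {κ : Type*} (n : ℕ) (s : Finset κ) (g : κ → Fin n → F) (w : Fin n → F) :
    hermForm n F q w (∑ i ∈ s, g i) = ∑ i ∈ s, hermForm n F q w (g i) := by
  classical
  induction s using Finset.induction_on with
  | empty => simp [herm_zero_right hF]
  | insert a s ha ih => rw [Finset.sum_insert ha, Finset.sum_insert ha, herm_add_right hF, ih]

theorem herm_eq_zero_symm (n : ℕ) {u v : Fin n → F} (h : hermForm n F q u v = 0) :
    hermForm n F q v u = 0 := by
  have hq := herm_q_pos hF
  rw [← herm_conj hF, h, zero_pow (by omega)]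

/-- a non-degenerate subspace has an orthonormal family of the size of its dimension. -/
theorem exists_orthonormal (n : ℕ) : ∀ (k : ℕ) (X : Submodule F (Fin n → F)),
    Module.finrank F X = k →
    (∀ u ∈ X, (∀ v ∈ X, hermForm n F q u v = 0) → u = 0) →
    ∃ b : Fin k → (Fin n → F), (∀ i, b i ∈ X) ∧
      ∀ i j, hermForm n F q (b i) (b j) = if i = j then 1 else 0 := by
  have hq := herm_q_pos hF
  intro k
  induction k with
  | zero => intro X _ _; exact ⟨Fin.elim0, fun i => i.elim0, fun i => i.elim0⟩
  | succ k ih =>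
    intro X hd hX
    obtain ⟨v, hv, hvv⟩ : ∃ v ∈ X, hermForm n F q v v ≠ 0 := by
      by_contra hcon
      push Not at hcon
      have h1 := uf_polarize (herm_isUnitary hF n) X hcon
      have h2 : X = ⊥ := by
        rw [Submodule.eq_bot_iff]
        intro x hx
        exact hX x hx (h1 x hx)
      rw [h2, finrank_bot] at hd
      omega
    obtain ⟨l, hl⟩ := exists_norm_eq hF (hermForm n F q v v)⁻¹ (by rw [inv_pow, herm_conj hF])
    set v' := l • v with hv'
    have hv'X : v' ∈ X := X.smul_mem l hv
    have hv'1 : hermForm n F q v' v' = 1 := by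
      rw [hv', herm_smul_left, herm_smul_right, ← mul_assoc, ← pow_succ', hl,
        inv_mul_cancel₀ hvv]
    let L : X →ₗ[F] F := (hermL q n v').domRestrict X
    have hLs : LinearMap.range L = ⊤ := by
      rw [LinearMap.range_eq_top]
      intro c
      refine ⟨⟨c • v', X.smul_mem c hv'X⟩, ?_⟩
      show hermForm n F q (c • v') v' = c
      rw [herm_smul_left, hv'1, mul_one]
    have hker : Module.finrank F (LinearMap.ker L) = k := by
      have h1 := LinearMap.finrank_range_add_finrank_ker L
      rw [hLs, finrank_top, Module.finrank_self, hd] at h1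
      omega
    set X' : Submodule F (Fin n → F) := (LinearMap.ker L).map X.subtype with hX'
    have hmem : ∀ x, x ∈ X' ↔ x ∈ X ∧ hermForm n F q x v' = 0 := by
      intro x
      rw [hX', Submodule.mem_map]
      constructor
      · rintro ⟨y, hy, rfl⟩
        exact ⟨y.2, hy⟩
      · rintro ⟨hx, h0⟩
        exact ⟨⟨x, hx⟩, h0, rfl⟩
    have hd' : Module.finrank F X' = k := by
      rw [hX', Submodule.finrank_map_subtype_eq, hker]
    have hnd' : ∀ u ∈ X', (∀ w ∈ X', hermForm n F q u w = 0) → u = 0 := by
      intro u hu hu0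
      obtain ⟨huX, huv⟩ := (hmem u).1 hu
      apply hX u huX
      intro w hw
      have hw' : w - hermForm n F q w v' • v' ∈ X' := by
        rw [hmem]
        refine ⟨X.sub_mem hw (X.smul_mem _ hv'X), ?_⟩
        rw [herm_sub_left, herm_smul_left, hv'1, mul_one, sub_self]
      have h1 := hu0 _ hw'
      rw [herm_sub_right hF, herm_smul_right, huv, mul_zero, sub_zero] at h1
      exact h1
    obtain ⟨b, hbX, hb⟩ := ih X' hd' hnd'
    refine ⟨Fin.cons v' b, ?_, ?_⟩
    · intro i
      refine Fin.cases ?_ (fun i => ?_) i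
      · simpa using hv'X
      · simpa using ((hmem _).1 (hbX i)).1
    · intro i j
      refine Fin.cases ?_ (fun i => ?_) i
      · refine Fin.cases ?_ (fun j => ?_) j
        · simpa using hv'1
        · simp only [Fin.cons_zero, Fin.cons_succ]
          rw [herm_eq_zero_symm hF n ((hmem _).1 (hbX j)).2, if_neg (Fin.succ_ne_zero j).symm]
      · refine Fin.cases ?_ (fun j => ?_) j
        · simp only [Fin.cons_zero, Fin.cons_succ]
          rw [((hmem _).1 (hbX i)).2, if_neg (Fin.succ_ne_zero i)]
        · simp only [Fin.cons_succ, hb, Fin.succ_inj]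

/-- orthonormal coordinates on a non-degenerate subspace. -/
theorem exists_herm_coords (n k : ℕ) (X : Submodule F (Fin n → F))
    (hd : Module.finrank F X = k)
    (hX : ∀ u ∈ X, (∀ v ∈ X, hermForm n F q u v = 0) → u = 0) :
    ∃ ψ : (Fin k → F) ≃ₗ[F] X, ∀ x y,
      hermForm n F q (ψ x : Fin n → F) (ψ y) = hermForm k F q x y := by
  have hq := herm_q_pos hF
  obtain ⟨b, hbX, hb⟩ := exists_orthonormal hF n k X hd hX
  let c : Fin k → X := fun i => ⟨b i, hbX i⟩
  have hform : ∀ x y : Fin k → F, hermForm n F q (∑ i, x i • b i) (∑ j, y j • b j)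
      = hermForm k F q x y := by
    intro x y
    rw [herm_sum_left]
    simp only [herm_sum_right hF, herm_smul_left, herm_smul_right, hb]
    simp only [hermForm, mul_ite, mul_one, mul_zero, Finset.sum_ite_eq, Finset.mem_univ, if_true]
    exact Finset.sum_congr rfl (fun i _ => mul_comm _ _)
  have hli : LinearIndependent F c := by
    rw [Fintype.linearIndependent_iff]
    intro g hg i
    have h1 : ∑ i, g i • b i = 0 := by
      have := congrArg (Subtype.val) hg
      simpa [c] using this
    have h2 := hform g (Pi.single i 1)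
    rw [h1, herm_single_right q k (by omega)] at h2
    rw [← h2]
    simp [hermForm]
  let B : Module.Basis (Fin k) F X := Module.Basis.mk hli
    (by rw [hli.span_eq_top_of_card_eq_finrank' (by simp [hd])])
  refine ⟨B.equivFun.symm, fun x y => ?_⟩
  have h3 : ∀ x : Fin k → F, ((B.equivFun.symm x : X) : Fin n → F) = ∑ i, x i • b i := by
    intro x
    rw [Module.Basis.equivFun_symm_apply]
    simp [B, c]
  rw [h3, h3, hform]

/-- the perpendicular subspace. -/
def hermPerp (q n : ℕ) (X : Submodule F (Fin n → F)) : Submodule F (Fin n → F) where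
  carrier := {x | ∀ w ∈ X, hermForm n F q x w = 0}
  add_mem' {a b} ha hb w hw := by rw [herm_add_left, ha w hw, hb w hw, add_zero]
  zero_mem' w _ := by simp [hermForm]
  smul_mem' c x hx w hw := by rw [herm_smul_left, hx w hw, mul_zero]

omit hF [Fintype F] in
theorem mem_hermPerp (q n : ℕ) (X : Submodule F (Fin n → F)) (x : Fin n → F) :
    x ∈ hermPerp q n X ↔ ∀ w ∈ X, hermForm n F q x w = 0 := Iff.rfl

theorem hermPerp_isCompl (n : ℕ) (X : Submodule F (Fin n → F))
    (hX : ∀ u ∈ X, (∀ v ∈ X, hermForm n F q u v = 0) → u = 0) :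
    IsCompl X (hermPerp q n X) := by
  have hq := herm_q_pos hF
  obtain ⟨ψ, hψ⟩ := exists_herm_coords hF n _ X rfl hX
  constructor
  · rw [Submodule.disjoint_def]
    intro x hx hx'
    exact hX x hx hx'
  · rw [codisjoint_iff, Submodule.eq_top_iff']
    intro v
    set p : X := ψ (fun i => hermForm n F q v (ψ (Pi.single i 1))) with hp
    have h1 : v - p ∈ hermPerp q n X := by
      intro w hw
      obtain ⟨y, hy⟩ := ψ.surjective ⟨w, hw⟩
      have hw' : w = (ψ y : Fin n → F) := by rw [hy]
      rw [herm_sub_left, hw', hp, hψ]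
      have h2 : y = ∑ i, y i • (Pi.single i 1 : Fin _ → F) := by
        ext j
        simp [Finset.sum_apply, Pi.single_apply]
      have h3 : (ψ y : Fin n → F) = ∑ i, y i • (ψ (Pi.single i 1) : Fin n → F) := by
        conv_lhs => rw [h2]
        rw [map_sum]
        simp only [map_smul, Submodule.coe_sum, Submodule.coe_smul]
      rw [h3, herm_sum_right hF, sub_eq_zero]
      simp only [herm_smul_right]
      rw [hermForm]
      apply Finset.sum_congr rfl
      intro i _
      rw [mul_comm]
    have h2 : v = p + (v - p) := by abel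
    rw [h2]
    exact Submodule.add_mem_sup p.2 h1

theorem hermPerp_nondeg (n : ℕ) (X : Submodule F (Fin n → F))
    (hX : ∀ u ∈ X, (∀ v ∈ X, hermForm n F q u v = 0) → u = 0) :
    ∀ u ∈ hermPerp q n X, (∀ v ∈ hermPerp q n X, hermForm n F q u v = 0) → u = 0 := by
  have hq := herm_q_pos hF
  intro u hu hu0
  have hall : ∀ z, hermForm n F q u z = 0 := by
    intro z
    have hz : z ∈ X ⊔ hermPerp q n X := by
      rw [(hermPerp_isCompl hF n X hX).sup_eq_top]; trivial
    obtain ⟨a, ha, b, hb, rfl⟩ := Submodule.mem_sup.mp hz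
    rw [herm_add_right hF, hu a ha, hu0 b hb, add_zero]
  funext i
  have := hall (Pi.single i 1)
  rwa [herm_single_right q n (by omega)] at this

end Cfsg.Agent.Lib.Helper12
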